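import Cfsg.Agent.H40.ASSpec

/-! ALTSEC job M: small modules of `A₁₂` and `2.A₁₂` by weights of `3⁴`. -/

set_option autoImplicit false

namespace H79.AM

open Equiv Equiv.Perm Module H40.AS

section Lin
variable {k V : Type*} [Field k] [AddCommGroup V] [Module k V] {ω : k}

/-- The eigenspace for `ω ^ c`. -/
abbrev Ei (ω : k) (f : End k V) (c : Fin 3) : Submodule k V := f.eigenspace (ω ^ (c : ℕ))

theorem mem_Ei {f : End k V} {c : Fin 3} {v : V} : v ∈ Ei ω f c ↔ f v = ω ^ (c : ℕ) • v :=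
  End.mem_eigenspace_iff

theorem split3 [FiniteDimensional k V] (h3 : (3 : k) ≠ 0) (hω : ω ^ 2 + ω + 1 = 0) {f : End k V}
    (hf : ∀ v, f (f (f v)) = v) {U : Submodule k V} (hU : ∀ v ∈ U, f v ∈ U) :
    finrank k U = ∑ c, finrank k ↥(U ⊓ Ei ω f c) := by
  let Φ : ↥(U ⊓ Ei ω f 0) × ↥(U ⊓ Ei ω f 1) × ↥(U ⊓ Ei ω f 2) →ₗ[k] V :=
    (Submodule.subtype _).coprod ((Submodule.subtype _).coprod (Submodule.subtype _))
  obtain ⟨t, ht⟩ : ∃ t : k, 3 * t = 1 := ⟨_, mul_inv_cancel₀ h3⟩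
  have inj : Function.Injective Φ := (injective_iff_map_eq_zero _).2 fun ⟨⟨a, _, ha⟩, ⟨b, _, hb⟩, c, _, hc⟩ e => by
    have e : a + (b + c) = 0 := e
    have ha := mem_Ei.1 ha
    have hb := mem_Ei.1 hb
    have hc := mem_Ei.1 hc
    have e1 := congrArg f e
    have e2 := congrArg f e1
    simp only [map_add, map_smul, map_zero, ha, hb, hc, Fin.val_zero, Fin.val_one, Fin.val_two] at e1 e2
    have a0 : a = 0 := by
      linear_combination (norm := skip) t • (e + e1 + e2)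
      match_scalars <;> grind
    have b0 : b = 0 := by
      linear_combination (norm := skip) t • (e + ω ^ 2 • e1 + ω • e2)
      match_scalars <;> grind
    have c0 : c = 0 := by simpa [a0, b0] using e
    simp [a0, b0, c0]
  have rg : LinearMap.range Φ = U := le_antisymm
    (by rintro _ ⟨⟨a, b, c⟩, rfl⟩; exact add_mem a.2.1 (add_mem b.2.1 c.2.1)) fun v hv => by
      have m : ∀ a b : k, t • (v + a • f v + b • f (f v)) ∈ U := fun a b =>
        U.smul_mem _ (add_mem (add_mem hv (U.smul_mem _ (hU v hv))) (U.smul_mem _ (hU _ (hU v hv))))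
      refine ⟨(⟨_, m 1 1, mem_Ei.2 ?_⟩, ⟨_, m (ω ^ 2) ω, mem_Ei.2 ?_⟩, ⟨_, m ω (ω ^ 2), mem_Ei.2 ?_⟩), ?_⟩
      iterate 3
        simp only [map_add, map_smul, hf, Fin.val_zero, Fin.val_one, Fin.val_two]
        match_scalars <;> grind
      · show t • _ + (t • _ + t • _) = v
        match_scalars <;> grind
  rw [← rg, LinearMap.finrank_range_of_inj inj, rg]
  simp [Fin.sum_univ_three, add_assoc]

theorem finrank_le_of_map [FiniteDimensional k V] {f : End k V} (hf : Function.Injective f)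
    {A B : Submodule k V} (h : ∀ v ∈ A, f v ∈ B) : finrank k A ≤ finrank k B :=
  LinearMap.finrank_le_finrank_of_injective (f := f.restrict h) fun _ _ e =>
    Subtype.ext (hf (congrArg Subtype.val e))

variable {H : Type*} [Group H] (ρ : Representation k H V)

theorem ap (g h : H) (v : V) : ρ (g * h) v = ρ g (ρ h v) := by rw [map_mul]; rfl

theorem inj (g : H) : Function.Injective (ρ g) := fun a b e => by
  simpa [← ap] using congrArg (ρ g⁻¹) e

variable {ρ}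

theorem Ei_conj {x y g : H} (e : x * g = g * y) {c : Fin 3} {v : V} (h : v ∈ Ei ω (ρ y) c) :
    ρ g v ∈ Ei ω (ρ x) c := by
  rw [mem_Ei, ← ap, e, ap, mem_Ei.1 h, map_smul]

theorem Ei_sq (hω : ω ^ 2 + ω + 1 = 0) {y : H} {c : Fin 3} {v : V} (h : v ∈ Ei ω (ρ y) c) :
    v ∈ Ei ω (ρ (y * y)) (-c) := by
  rw [mem_Ei, ap, mem_Ei.1 h, map_smul, mem_Ei.1 h, smul_smul]
  congr 1
  fin_cases c
  · simp
  · show ω ^ 1 * ω ^ 1 = ω ^ 2
    ring
  · show ω ^ 2 * ω ^ 2 = ω ^ 1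
    grind

end Lin

/-! ### combinatorics of weights -/

abbrev A := Fin 3 × Fin 3 × Fin 3 × Fin 3

def T : Fin 3 → A → A
  | 0, (a, b, c, e) => (-a, -b, c, e)
  | 1, (a, b, c, e) => (b, c, a, e)
  | 2, (a, b, c, e) => (-a, b, e, c)

def nz (a : A) : ℕ :=
  (if a.1 = 0 then 0 else 1) + (if a.2.1 = 0 then 0 else 1) + (if a.2.2.1 = 0 then 0 else 1) +
    if a.2.2.2 = 0 then 0 else 1

def rp : ℕ → A
  | 0 => (0, 0, 0, 0)
  | 1 => (1, 0, 0, 0)
  | 2 => (1, 1, 0, 0)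
  | 3 => (1, 1, 1, 0)
  | _ => (1, 1, 1, 1)

def Ws : List (List (Fin 3)) :=
  [[], [0], [1], [2], [0, 1], [1, 0], [1, 1], [1, 2], [2, 0], [2, 1], [0, 1, 0], [0, 1, 1], [0, 1, 2], [1, 0, 1],
   [1, 1, 0], [1, 1, 2], [1, 2, 0], [1, 2, 1], [2, 0, 1], [2, 1, 0], [2, 1, 1], [2, 1, 2], [0, 1, 1, 2],
   [0, 1, 2, 0], [1, 0, 1, 2], [1, 1, 2, 0], [1, 2, 0, 1], [1, 2, 1, 0], [1, 2, 1, 2], [2, 0, 1, 0], [2, 0, 1, 1],
   [2, 0, 1, 2], [2, 1, 0, 1], [2, 1, 1, 0], [0, 1, 2, 1, 2], [1, 0, 1, 1, 2], [1, 1, 0, 1, 2], [1, 1, 2, 1, 0],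
   [1, 1, 2, 1, 2], [1, 2, 0, 1, 0], [2, 1, 0, 1, 2], [0, 1, 2, 0, 1, 0], [1, 2, 1, 0, 1, 2], [2, 1, 0, 1, 1, 2],
   [2, 1, 1, 0, 1, 2], [2, 1, 1, 2, 1, 2], [2, 1, 2, 1, 0, 1, 2]]

theorem orb : ∀ a : A, ∃ w ∈ Ws, w.foldr T (rp (nz a)) = a := by decide +kernel

theorem T6 : ∀ (i : Fin 3) (a : A), T i (T i (T i (T i (T i (T i a))))) = a := by decide +kernel

theorem const {d : A → ℕ} (h : ∀ i a, d a ≤ d (T i a)) (a : A) : d a = d (rp (nz a)) := by
  have e : ∀ i a, d (T i a) = d a := fun i a => le_antisymm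
    ((h i _).trans ((h i _).trans ((h i _).trans ((h i _).trans ((h i _).trans_eq (congrArg d (T6 i a))))))) (h i a)
  obtain ⟨w, -, hw⟩ := orb a
  generalize rp (nz a) = r at hw
  subst hw
  induction w with
  | nil => rfl
  | cons i w ih => rw [List.foldr_cons, e, ih]

theorem sums (m : ℕ → ℕ) :
    ∑ a, ∑ b, ∑ c, ∑ e, m (nz (a, b, c, e)) = m 0 + 8 * m 1 + 24 * m 2 + 32 * m 3 + 16 * m 4 ∧
    ∑ b, ∑ c, ∑ e, m (nz (1, b, c, e)) = m 1 + 6 * m 2 + 12 * m 3 + 8 * m 4 ∧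
    ∑ c, ∑ e, m (nz (1, 1, c, e)) = m 2 + 4 * m 3 + 4 * m 4 ∧ ∑ e, m (nz (1, 1, 0, e)) = m 2 + 2 * m 3 := by
  simp +decide only [Fin.sum_univ_three, nz, if_true, if_false, Nat.reduceAdd]
  omega

/-! ### covers of `A₁₂` -/

def c0 : Perm (Fin 12) := swap 0 1 * swap 1 2
def c1 : Perm (Fin 12) := swap 3 4 * swap 4 5
def c2 : Perm (Fin 12) := swap 6 7 * swap 7 8
def c3 : Perm (Fin 12) := swap 9 10 * swap 10 11

def e9 : Fin 9 ≃ {i : Fin 12 // 3 ≤ i} :=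
  ⟨fun i => ⟨⟨i + 3, by omega⟩, by simp [Fin.le_def]⟩, fun j => ⟨j.1 - 3, by omega⟩, by decide, by decide⟩

/-- A central extension of `A₁₂` with kernel of exponent `2`. -/
structure Cov {H : Type} [Group H] (π : H →* Perm (Fin 12)) : Prop where
  fin : Finite H
  range : π.range = alternatingGroup (Fin 12)
  sq : ∀ g, π g = 1 → g * g = 1
  cen : ∀ g, π g = 1 → ∀ h, g * h = h * g

variable {H : Type} [Group H] {π : H →* Perm (Fin 12)}

theorem Cov.lift (C : Cov π) {σ : Perm (Fin 12)} (h : sign σ = 1) : ∃ g, π g = σ :=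
  C.range.ge (mem_alternatingGroup.2 h)

theorem Cov.pow4 (C : Cov π) {g : H} (h : π g ^ 3 = 1) : π (g ^ 4) = π g ∧ (g ^ 4) ^ 3 = 1 := by
  have := C.sq (g ^ 3) (by rw [map_pow, h])
  exact ⟨by rw [map_pow, pow_succ, h, one_mul], by
    rw [show (g ^ 4) ^ 3 = g ^ 3 * g ^ 3 * (g ^ 3 * g ^ 3) by group, this, one_mul]⟩

theorem Cov.uniq (C : Cov π) {g h : H} (e : π g = π h) (hg : g ^ 3 = 1) (hh : h ^ 3 = 1) : g = h := by
  have k : π (g * h⁻¹) = 1 := by rw [map_mul, map_inv, e, mul_inv_cancel]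
  have := (show Commute (g * h⁻¹) h from C.cen _ k h).mul_pow 3
  rw [inv_mul_cancel_right, hg, hh, mul_one, pow_succ, pow_two, C.sq _ k, one_mul] at this
  exact mul_inv_eq_one.1 this.symm

theorem Cov.rel (C : Cov π) {x y g : H} (hx : x ^ 3 = 1) (hy : y ^ 3 = 1) (e : π x * π g = π g * π y) :
    x * g = g * y := by
  rw [← mul_inv_eq_iff_eq_mul.1 (C.uniq (g := g * y * g⁻¹) (h := x) (by
    rw [map_mul, map_mul, map_inv, ← e, mul_inv_cancel_right]) (by rw [conj_pow, hy, mul_one, mul_inv_cancel]) hx)]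

/-- The four lifts. -/
structure Fr (π : H →* Perm (Fin 12)) (x0 x1 x2 x3 : H) : Prop extends Cov π where
  p0 : π x0 = c0
  p1 : π x1 = c1
  p2 : π x2 = c2
  p3 : π x3 = c3
  o0 : x0 ^ 3 = 1
  o1 : x1 ^ 3 = 1
  o2 : x2 ^ 3 = 1
  o3 : x3 ^ 3 = 1

theorem Cov.fr (C : Cov π) : ∃ x0 x1 x2 x3, Fr π x0 x1 x2 x3 := by
  obtain ⟨x0, p0⟩ := C.lift (σ := c0) (by decide +kernel)
  obtain ⟨x1, p1⟩ := C.lift (σ := c1) (by decide +kernel)
  obtain ⟨x2, p2⟩ := C.lift (σ := c2) (by decide +kernel)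
  obtain ⟨x3, p3⟩ := C.lift (σ := c3) (by decide +kernel)
  have a0 := C.pow4 (g := x0) (by rw [p0]; decide +kernel)
  have a1 := C.pow4 (g := x1) (by rw [p1]; decide +kernel)
  have a2 := C.pow4 (g := x2) (by rw [p2]; decide +kernel)
  have a3 := C.pow4 (g := x3) (by rw [p3]; decide +kernel)
  exact ⟨_, _, _, _, C, a0.1.trans p0, a1.1.trans p1, a2.1.trans p2, a3.1.trans p3, a0.2, a1.2, a2.2, a3.2⟩

theorem cube_sq {x : H} (h : x ^ 3 = 1) : (x * x) ^ 3 = 1 := by rw [← sq, ← pow_mul, mul_comm, pow_mul, h, one_pow]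

variable {k V : Type} [Field k] [AddCommGroup V] [Module k V] {ω : k} {x0 x1 x2 x3 : H}

/-- The weight space. -/
def W (ω : k) (ρ : Representation k H V) (x0 x1 x2 x3 : H) (a : A) : Submodule k V :=
  Ei ω (ρ x0) a.1 ⊓ Ei ω (ρ x1) a.2.1 ⊓ Ei ω (ρ x2) a.2.2.1 ⊓ Ei ω (ρ x3) a.2.2.2

namespace Fr
variable [FiniteDimensional k V] (F : Fr π x0 x1 x2 x3) (ρ : Representation k H V) (h3 : (3 : k) ≠ 0)
  (hω : ω ^ 2 + ω + 1 = 0)
include F hω

theorem dconst (a : A) : finrank k (W ω ρ x0 x1 x2 x3 a) = finrank k (W ω ρ x0 x1 x2 x3 (rp (nz a))) := by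
  refine const (d := fun a => finrank k (W ω ρ x0 x1 x2 x3 a)) (fun i ⟨a, b, c, e⟩ => ?_) a
  fin_cases i
  · obtain ⟨g, p⟩ := F.lift (σ := swap 1 2 * swap 4 5) (by decide +kernel)
    exact finrank_le_of_map (inj ρ g) fun v ⟨⟨⟨a, b⟩, c⟩, e⟩ =>
      ⟨⟨⟨Ei_conj (F.rel F.o0 (cube_sq F.o0) (by rw [map_mul, F.p0, p]; decide +kernel)) (Ei_sq hω a),
        Ei_conj (F.rel F.o1 (cube_sq F.o1) (by rw [map_mul, F.p1, p]; decide +kernel)) (Ei_sq hω b)⟩,
        Ei_conj (F.rel F.o2 F.o2 (by rw [F.p2, p]; decide +kernel)) c⟩,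
        Ei_conj (F.rel F.o3 F.o3 (by rw [F.p3, p]; decide +kernel)) e⟩
  · obtain ⟨g, p⟩ := F.lift (σ := swap 0 6 * swap 6 3 * (swap 1 7 * swap 7 4) * (swap 2 8 * swap 8 5))
      (by decide +kernel)
    exact finrank_le_of_map (inj ρ g) fun v ⟨⟨⟨a, b⟩, c⟩, e⟩ =>
      ⟨⟨⟨Ei_conj (F.rel F.o0 F.o1 (by rw [F.p0, F.p1, p]; decide +kernel)) b,
        Ei_conj (F.rel F.o1 F.o2 (by rw [F.p1, F.p2, p]; decide +kernel)) c⟩,
        Ei_conj (F.rel F.o2 F.o0 (by rw [F.p2, F.p0, p]; decide +kernel)) a⟩,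
        Ei_conj (F.rel F.o3 F.o3 (by rw [F.p3, p]; decide +kernel)) e⟩
  · obtain ⟨g, p⟩ := F.lift (σ := swap 1 2 * swap 6 9 * (swap 7 10 * swap 8 11)) (by decide +kernel)
    exact finrank_le_of_map (inj ρ g) fun v ⟨⟨⟨a, b⟩, c⟩, e⟩ =>
      ⟨⟨⟨Ei_conj (F.rel F.o0 (cube_sq F.o0) (by rw [map_mul, F.p0, p]; decide +kernel)) (Ei_sq hω a),
        Ei_conj (F.rel F.o1 F.o1 (by rw [F.p1, p]; decide +kernel)) b⟩,
        Ei_conj (F.rel F.o2 F.o3 (by rw [F.p2, F.p3, p]; decide +kernel)) e⟩,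
        Ei_conj (F.rel F.o3 F.o2 (by rw [F.p3, F.p2, p]; decide +kernel)) c⟩

include h3

theorem dims : ∃ m : ℕ → ℕ, finrank k V = m 0 + 8 * m 1 + 24 * m 2 + 32 * m 3 + 16 * m 4 ∧
    finrank k (Ei ω (ρ x0) 1) = m 1 + 6 * m 2 + 12 * m 3 + 8 * m 4 ∧
    finrank k ↥(Ei ω (ρ x0) 1 ⊓ Ei ω (ρ x1) 1) = m 2 + 4 * m 3 + 4 * m 4 ∧
    finrank k ↥(Ei ω (ρ x0) 1 ⊓ Ei ω (ρ x1) 1 ⊓ Ei ω (ρ x2) 0) = m 2 + 2 * m 3 ∧
    finrank k (W ω ρ x0 x1 x2 x3 (0, 0, 0, 0)) = m 0 ∧ finrank k (W ω ρ x0 x1 x2 x3 (1, 1, 1, 1)) = m 4 := by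
  have cb : ∀ {x : H}, x ^ 3 = 1 → ∀ v, ρ x (ρ x (ρ x v)) = v := fun {x} h v => by
    rw [← ap, ← ap, ← sq, ← pow_succ, h, map_one]; rfl
  have s3 : ∀ a b c, finrank k ↥(Ei ω (ρ x0) a ⊓ Ei ω (ρ x1) b ⊓ Ei ω (ρ x2) c) =
      ∑ e, finrank k (W ω ρ x0 x1 x2 x3 (rp (nz (a, b, c, e)))) := fun a b c => by
    rw [split3 h3 hω (cb F.o3) (U := _ ⊓ _ ⊓ _) fun v ⟨⟨a, b⟩, c⟩ =>
      ⟨⟨Ei_conj (F.rel F.o0 F.o0 (by rw [F.p0, F.p3]; decide +kernel)) a,
        Ei_conj (F.rel F.o1 F.o1 (by rw [F.p1, F.p3]; decide +kernel)) b⟩,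
        Ei_conj (F.rel F.o2 F.o2 (by rw [F.p2, F.p3]; decide +kernel)) c⟩]
    exact Finset.sum_congr rfl fun e _ => F.dconst ρ hω (a, b, c, e)
  have s2 : ∀ a b, finrank k ↥(Ei ω (ρ x0) a ⊓ Ei ω (ρ x1) b) = _ := fun a b =>
    (split3 h3 hω (cb F.o2) (U := _ ⊓ _) fun v ⟨a, b⟩ =>
      ⟨Ei_conj (F.rel F.o0 F.o0 (by rw [F.p0, F.p2]; decide +kernel)) a,
        Ei_conj (F.rel F.o1 F.o1 (by rw [F.p1, F.p2]; decide +kernel)) b⟩).trans
      (Finset.sum_congr rfl fun c _ => s3 a b c)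
  have s1 : ∀ a, finrank k ↥(Ei ω (ρ x0) a) = _ := fun a =>
    (split3 h3 hω (cb F.o1) fun v a =>
      Ei_conj (F.rel F.o0 F.o0 (by rw [F.p0, F.p1]; decide +kernel)) a).trans
      (Finset.sum_congr rfl fun b _ => s2 a b)
  have s0 := split3 h3 hω (cb F.o0) (U := ⊤) fun _ _ => trivial
  rw [finrank_top, Finset.sum_congr rfl fun a _ => (by rw [top_inf_eq, s1 a])] at s0
  have := sums fun j => finrank k (W ω ρ x0 x1 x2 x3 (rp j))
  exact ⟨fun j => finrank k (W ω ρ x0 x1 x2 x3 (rp j)), s0.trans this.1, (s1 1).trans this.2.1,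
    (s2 1 1).trans this.2.2.1, (s3 1 1 0).trans this.2.2.2, rfl, rfl⟩

end Fr

theorem Fr.dich (hS : Sec 9) (F : Fr π x0 x1 x2 x3) (p : ℕ) [Fact p.Prime] [CharP k p] (h3 : (3 : k) ≠ 0)
    [FiniteDimensional k V] (ρ : Representation k H V) : 8 ≤ finrank k (Ei ω (ρ x0) 1) ∨
      ∀ σ : Perm (Fin 9), sign σ = 1 → ∃ n, π n = σ.extendDomain e9 ∧ ∀ v ∈ Ei ω (ρ x0) 1, ρ n v = v := by
  have := F.fin
  let K : Subgroup (H × Perm (Fin 9)) :=
    (π.comp (MonoidHom.fst _ _)).eqLocus ((extendDomainHom e9).comp (MonoidHom.snd _ _))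
  let π' : K →* Perm (Fin 9) := (MonoidHom.snd _ _).comp K.subtype
  have rg : π'.range = alternatingGroup (Fin 9) := le_antisymm
    (by
      rintro _ ⟨g, rfl⟩
      have e : π g.1.1 = g.1.2.extendDomain e9 := g.2
      have := mem_alternatingGroup.1 (F.range.le ⟨g.1.1, e⟩)
      rwa [sign_extendDomain] at this)
    fun σ h => let ⟨g, e⟩ := F.lift (σ := σ.extendDomain e9) (by rwa [sign_extendDomain]); ⟨⟨(g, σ), e⟩, rfl⟩
  let ρ' : Representation k K (Ei ω (ρ x0) 1) := Representation.subrepresentation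
    (ρ.comp ((MonoidHom.fst _ _).comp K.subtype)) _ fun g v hv => Ei_conj (F.rel F.o0 F.o0 (by
      have e : π g.1.1 = g.1.2.extendDomain e9 := g.2
      refine F.p0 ▸ e ▸ (Disjoint.commute fun i => ?_).eq
      by_cases a : 3 ≤ i
      · exact .inl ((by decide +kernel : ∀ i, 3 ≤ i → c0 i = i) i a)
      · exact .inr (extendDomain_apply_not_subtype _ _ a))) hv
  let φ : K →* alternatingGroup (Fin 9) := π'.codRestrict _ fun g => rg.le ⟨g, rfl⟩
  have sj : Function.Surjective φ := fun ⟨σ, h⟩ => let ⟨g, e⟩ := rg.ge h; ⟨g, Subtype.ext e⟩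
  have := (inferInstance : ρ'.ker.Normal).map φ sj
  rcases alternatingGroup.normal_subgroup_eq_bot_or_eq_top (N := ρ'.ker.map φ) (by simp) with a | a
  · have := hS K π' rg p k _ ρ' fun h e => congrArg Subtype.val (Subgroup.mem_bot.1 (a.le ⟨h, e, rfl⟩))
    have n : ¬ p ∣ 9 := fun d => h3 (by
      have := (CharP.cast_eq_zero_iff k p 9).2 d
      exact pow_eq_zero_iff two_ne_zero |>.1 (by rw [← this]; norm_num))
    exact .inl (by simpa [bd, n] using this)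
  · refine .inr fun σ h => ?_
    obtain ⟨g, e, f⟩ := a.ge (Subgroup.mem_top ⟨σ, mem_alternatingGroup.2 h⟩)
    obtain rfl : g.1.2 = σ := congrArg Subtype.val f
    exact ⟨g.1.1, g.2, fun v hv =>
      congrArg Subtype.val (LinearMap.congr_fun (MonoidHom.mem_ker.1 e) ⟨v, hv⟩)⟩

abbrev A12 := alternatingGroup (Fin 12)

def eX : A12 := ⟨c2, mem_alternatingGroup.2 (by decide +kernel)⟩
def ea : A12 := ⟨swap 6 7 * swap 8 9, mem_alternatingGroup.2 (by decide +kernel)⟩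
def eb : A12 := ⟨swap 6 8 * swap 7 9, mem_alternatingGroup.2 (by decide +kernel)⟩
def ec : A12 := ⟨swap 6 9 * swap 7 8, mem_alternatingGroup.2 (by decide +kernel)⟩
def eg : A12 := ⟨swap 8 10 * swap 9 11, mem_alternatingGroup.2 (by decide +kernel)⟩
def eh : A12 := ⟨swap 6 8 * swap 10 11, mem_alternatingGroup.2 (by decide +kernel)⟩

theorem quad (h2 : (2 : k) ≠ 0) (h3 : (3 : k) ≠ 0) (ρ : Representation k A12 V) {U : Submodule k V}
    (hU : ∀ g : A12, c0 * g = g * c0 → c1 * g = g * c1 → ∀ w ∈ U, ρ g w ∈ U)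
    (Q : ∀ w ∈ U, w + ρ eX w + ρ eX (ρ eX w) = 0) : ∀ w ∈ U, w = 0 := by
  have Ua := hU ea (by decide +kernel) (by decide +kernel)
  have Ub := hU eb (by decide +kernel) (by decide +kernel)
  have Uc := hU ec (by decide +kernel) (by decide +kernel)
  have Qg : ∀ g g' g'' : A12, g * g = 1 → g * (eX * g) = eX * g' → g * (eX * (eX * g)) = eX * (eX * g'') →
      (∀ w ∈ U, ρ g w ∈ U) → ∀ w ∈ U, w + ρ eX (ρ g' w) + ρ eX (ρ eX (ρ g'' w)) = 0 :=
    fun g g' g'' e1 e2 e3 i w hw => by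
      have := congrArg (ρ g) (Q _ (i w hw))
      simp only [map_add, map_zero, ← ap, e1, e2, e3, map_one, End.one_apply] at this
      simpa only [ap] using this
  have S : ∀ w ∈ U, w + ρ ea w + ρ eb w + ρ ec w = (4 : k) • w := fun w hw => by
    linear_combination (norm := module) Q _ (Ua w hw) + Q _ (Ub w hw) + Q _ (Uc w hw) -
      Qg ea ec eb (by decide +kernel) (by decide +kernel) (by decide +kernel) Ua w hw -
      Qg eb ea ec (by decide +kernel) (by decide +kernel) (by decide +kernel) Ub w hw -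
      Qg ec eb ea (by decide +kernel) (by decide +kernel) (by decide +kernel) Uc w hw
  have a1 : ∀ w ∈ U, ρ ea w = w := fun w hw => by
    have := S _ (Ua w hw)
    rw [← ap, ← ap, ← ap, show ea * ea = 1 by decide +kernel, show eb * ea = ec by decide +kernel,
      show ec * ea = eb by decide +kernel, map_one, End.one_apply] at this
    refine smul_right_injective V (r := (4 : k)) (by rw [show (4 : k) = 2 * 2 by norm_num]; exact mul_ne_zero h2 h2) ?_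
    linear_combination (norm := module) S w hw - this
  have cj : ∀ g t : A12, c0 * g = g * c0 → c1 * g = g * c1 → g * g = 1 → (∀ w ∈ U, ρ t w = w) →
      ∀ w ∈ U, ρ (g * (t * g)) w = w := fun g t e1 e2 e i w hw => by
    rw [ap, ap, i _ (hU g e1 e2 w hw), ← ap, e, map_one, End.one_apply]
  have t1 := cj eg ea (by decide +kernel) (by decide +kernel) (by decide +kernel) a1
  have t2 := cj eh _ (by decide +kernel) (by decide +kernel) (by decide +kernel) t1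
  intro w hw
  have x1 : ρ eX w = w := by
    rw [show eX = eg * (ea * eg) * (eh * (eg * (ea * eg) * eh)) by decide +kernel, ap, t2 w hw, t1 w hw]
  have := Q w hw
  rw [x1, x1] at this
  exact (smul_eq_zero_iff_right h3).1 (by linear_combination (norm := module) this)

theorem m12 (hS : Sec 9) : M12 := by
  intro p _ k _ _ _ h2 h3 V _ _ _ ρ hd x hx ω hω
  obtain ⟨x0, x1, x2, x3, F⟩ := Cov.fr (π := A12.subtype) ⟨inferInstance, Subgroup.range_subtype _,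
    fun g e => by rw [show g = 1 from Subtype.ext e, one_mul], fun g e h => by
      rw [show g = 1 from Subtype.ext e, one_mul, mul_one]⟩
  obtain ⟨g, hg⟩ := isConj_iff.1 (alternatingGroup.isThreeCycle_isConj (by simp) hx
    (show IsThreeCycle (x0 : Perm (Fin 12)) by
      rw [show x0.1 = c0 from F.p0]; exact card_support_eq_three_iff.1 (by decide +kernel)))
  have le : finrank k (End.eigenspace (ρ x) ω) ≤ finrank k (Ei ω (ρ x0) 1) :=
    finrank_le_of_map (inj ρ g) fun v hv => Ei_conj (mul_inv_eq_iff_eq_mul.1 hg).symm (c := 1) (by simpa using hv)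
  obtain ⟨m, d1, d2, d3, d4, -⟩ := F.dims ρ h3 hω
  have A : m 2 + 2 * m 3 = 0 → m 2 + 4 * m 3 + 4 * m 4 = 0 := fun e => by
    rw [← d3, Submodule.finrank_eq_zero, Submodule.eq_bot_iff]
    rw [← d4, Submodule.finrank_eq_zero, Submodule.eq_bot_iff] at e
    obtain rfl : x2 = eX := Subtype.ext F.p2
    have i : ∀ g : A12, c0 * g = g * c0 → c1 * g = g * c1 → ∀ w ∈ Ei ω (ρ x0) 1 ⊓ Ei ω (ρ x1) 1,
        ρ g w ∈ Ei ω (ρ x0) 1 ⊓ Ei ω (ρ x1) 1 := fun g a b w hw =>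
      ⟨Ei_conj (F.rel F.o0 F.o0 (F.p0 ▸ a)) hw.1, Ei_conj (F.rel F.o1 F.o1 (F.p1 ▸ b)) hw.2⟩
    have j := i eX (by decide +kernel) (by decide +kernel)
    refine quad h2 h3 ρ i fun w hw => e _ ⟨add_mem (add_mem hw (j w hw)) (j _ (j w hw)), mem_Ei.2 ?_⟩
    rw [map_add, map_add, ← ap ρ eX eX (ρ eX w), ← ap ρ (eX * eX), show eX * eX * eX = 1 by decide +kernel]
    simp only [map_one, End.one_apply, Fin.val_zero, pow_zero, one_smul]
    abel
  rcases F.dich (ω := ω) hS p h3 ρ with B | B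
  · omega
  obtain ⟨n, e, f⟩ := B (swap 0 1 * swap 1 2) (by decide +kernel)
  obtain rfl : n = x1 := Subtype.ext (e.trans ((by decide +kernel : _ = c1).trans F.p1.symm))
  have : finrank k ↥(Ei ω (ρ x0) 1 ⊓ Ei ω (ρ n) 1) = 0 := by
    rw [Submodule.finrank_eq_zero, Submodule.eq_bot_iff]
    intro v ⟨a, b⟩
    have b := mem_Ei.1 b
    rw [f v a, Fin.val_one, pow_one] at b
    exact (smul_eq_zero_iff_right (r := 1 - ω) fun e => h3 (by grind)).1 (by rw [sub_smul, one_smul, ← b, sub_self])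
  omega

theorem sq1 {z : H} (D : H49.DC z π) (a b c d : Fin 12) (n : a ≠ b ∧ a ≠ c ∧ a ≠ d ∧ b ≠ c ∧ b ≠ d ∧ c ≠ d) :
    ∃ u, π u = swap a b * swap c d ∧ u ^ 2 = z := by
  obtain ⟨n1, n2, n3, n4, n5, n6⟩ := n
  obtain ⟨u, e⟩ := D.lift (σ := swap a b * swap c d) (by rw [map_mul, sign_swap n1, sign_swap n6]; simp)
  exact ⟨u, e, D.sq_swap n1 n2 n3 n4 n5 n6 e⟩

theorem sq3 {z : H} (D : H49.DC z π) {s t r : Perm (Fin 12)} (hs : ∃ u, π u = s ∧ u ^ 2 = z)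
    (ht : ∃ u, π u = t ∧ u ^ 2 = z) (hr : ∃ u, π u = r ∧ u ^ 2 = z) (d1 : ∀ x, s x = x ∨ t x = x)
    (d2 : ∀ x, (s * t) x = x ∨ r x = x) {g : H} (e : π g = s * t * r) : g * g = z := by
  obtain ⟨u, rfl, q⟩ := hs
  obtain ⟨v, rfl, q'⟩ := ht
  obtain ⟨w, rfl, q''⟩ := hr
  have c1 : Commute u v := D.commute_of_disjoint d1
  have c2 : Commute (u * v) w := D.commute_of_disjoint (map_mul π u v ▸ d2)
  rw [← sq, D.sq_eq (h := u * v * w) (by rw [e, map_mul, map_mul]), c2.mul_pow, c1.mul_pow, q, q', q'',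
    D.zz, one_mul]

theorem s12 (hS : Sec 9) : S12 := by
  intro H _ z π D p _ k _ _ _ h2 h3 V _ _ _ _ ρ hz
  by_contra hd
  obtain ⟨s, hs⟩ := IsAlgClosed.exists_eq_mul_self (-3 : k)
  obtain ⟨ω, hω⟩ : ∃ ω : k, ω ^ 2 + ω + 1 = 0 := ⟨(s - 1) / 2, by field_simp; linear_combination -hs⟩
  obtain ⟨x0, x1, x2, x3, F⟩ := Cov.fr (π := π) ⟨D.finite, D.range, fun g e => (sq g).symm.trans (D.sq_one e),
    fun g e h => by rcases (D.ker g).1 e with rfl | rfl; exacts [by simp, (D.cen h).eq]⟩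
  obtain ⟨m, d1, d2, -, -, d5, d6⟩ := F.dims ρ h3 hω
  have neg : ∀ v, ρ z v = v → v = 0 := fun v e => (smul_eq_zero_iff_right h2).1 (by
    rw [hz] at e
    linear_combination (norm := (simp only [LinearMap.neg_apply, End.one_apply]; module)) -e)
  have A : m 4 ≠ 1 := fun e => by
    obtain ⟨a, pa⟩ := F.lift (σ := swap 0 3 * swap 6 9 * (swap 1 4 * swap 7 10) * (swap 2 5 * swap 8 11))
      (by decide +kernel)
    obtain ⟨b, pb⟩ := F.lift (σ := swap 0 6 * swap 3 9 * (swap 1 7 * swap 4 10) * (swap 2 8 * swap 5 11))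
      (by decide +kernel)
    have qa := sq3 D (sq1 D 0 3 6 9 (by decide)) (sq1 D 1 4 7 10 (by decide)) (sq1 D 2 5 8 11 (by decide))
      (by decide +kernel) (by decide +kernel) pa
    have qb := sq3 D (sq1 D 0 6 3 9 (by decide)) (sq1 D 1 7 4 10 (by decide)) (sq1 D 2 8 5 11 (by decide))
      (by decide +kernel) (by decide +kernel) pb
    have qc := sq3 D (sq1 D 0 9 3 6 (by decide)) (sq1 D 1 10 4 7 (by decide)) (sq1 D 2 11 5 8 (by decide))
      (by decide +kernel) (by decide +kernel) (g := a * b) (by rw [map_mul, pa, pb]; decide +kernel)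
    have ia : ∀ v ∈ W ω ρ x0 x1 x2 x3 (1, 1, 1, 1), ρ a v ∈ W ω ρ x0 x1 x2 x3 (1, 1, 1, 1) :=
      fun v ⟨⟨⟨a, b⟩, c⟩, e⟩ =>
      ⟨⟨⟨Ei_conj (F.rel F.o0 F.o1 (by rw [F.p0, F.p1, pa]; decide +kernel)) b,
        Ei_conj (F.rel F.o1 F.o0 (by rw [F.p1, F.p0, pa]; decide +kernel)) a⟩,
        Ei_conj (F.rel F.o2 F.o3 (by rw [F.p2, F.p3, pa]; decide +kernel)) e⟩,
        Ei_conj (F.rel F.o3 F.o2 (by rw [F.p3, F.p2, pa]; decide +kernel)) c⟩
    have ib : ∀ v ∈ W ω ρ x0 x1 x2 x3 (1, 1, 1, 1), ρ b v ∈ W ω ρ x0 x1 x2 x3 (1, 1, 1, 1) :=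
      fun v ⟨⟨⟨a, b⟩, c⟩, e⟩ =>
      ⟨⟨⟨Ei_conj (F.rel F.o0 F.o2 (by rw [F.p0, F.p2, pb]; decide +kernel)) c,
        Ei_conj (F.rel F.o1 F.o3 (by rw [F.p1, F.p3, pb]; decide +kernel)) e⟩,
        Ei_conj (F.rel F.o2 F.o0 (by rw [F.p2, F.p0, pb]; decide +kernel)) a⟩,
        Ei_conj (F.rel F.o3 F.o1 (by rw [F.p3, F.p1, pb]; decide +kernel)) b⟩
    rw [e] at d6
    obtain ⟨v, v0, hv⟩ := finrank_eq_one_iff'.1 d6
    obtain ⟨α, ha⟩ := hv ⟨_, ia v v.2⟩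
    obtain ⟨β, hb⟩ := hv ⟨_, ib v v.2⟩
    have ha : α • v.1 = ρ a v := congrArg Subtype.val ha
    have hb : β • v.1 = ρ b v := congrArg Subtype.val hb
    have c : z * (a * b) = b * a :=
      calc z * (a * b) = a * z * b := by rw [← mul_assoc, (D.cen a).eq]
        _ = a * a * (b * a) * (b * b) := by rw [← qc]; simp only [mul_assoc]
        _ = b * a := by rw [qa, qb, (D.cen _).eq, mul_assoc, D.zz, mul_one]
    refine v0 (Subtype.ext (inj ρ (a * b) ((neg _ ?_).trans (map_zero _).symm)))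
    rw [← ap, c, ap, ap, ← ha, ← hb, map_smul, map_smul, ← ha, ← hb, smul_comm]
  rcases F.dich (ω := ω) hS p h3 ρ with B | B
  · omega
  obtain ⟨n, e, f⟩ := B (swap 0 1 * swap 2 3) (by decide +kernel)
  have q := D.sq_swap (a := 3) (b := 4) (c := 5) (d := 6) (by decide) (by decide) (by decide) (by decide)
    (by decide) (by decide) (e.trans (by decide +kernel))
  have : finrank k (Ei ω (ρ x0) 1) = 0 := by
    rw [Submodule.finrank_eq_zero, Submodule.eq_bot_iff]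
    exact fun v hv => neg v (by rw [← q, sq, ap, f v hv, f v hv])
  have t := Submodule.eq_top_of_finrank_eq (S := W ω ρ x0 x1 x2 x3 (0, 0, 0, 0)) (by omega)
  have x : ∀ v, ρ x0 v = v := fun v => by simpa using mem_Ei.1 (t.ge Submodule.mem_top).1.1.1
  obtain ⟨g, pg⟩ := F.lift (σ := swap 2 3 * swap 4 5) (by decide +kernel)
  have q := D.sq_swap (a := 0) (b := 2) (c := 1) (d := 3) (by decide) (by decide) (by decide) (by decide)
    (by decide) (by decide) (g := x0 * (g * (x0 * g⁻¹))) (by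
      rw [map_mul, map_mul, map_mul, map_inv, pg, F.p0]; decide +kernel)
  obtain ⟨v, hv⟩ := exists_ne (0 : V)
  exact hv (neg v (by simp only [← q, sq, ap, x]; simp [← ap]))

theorem jobM : JobM := fun hS => ⟨m12 hS, s12 hS⟩

end H79.AM
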