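/- Tower C6P (rows S5792, S5807), job QU: `diag (ω ^ (i ^ 4))` is not in an overgroup without
homologies. -/
import Cfsg.Agent.H53.C6Od
import Cfsg.Agent.H98.Sylow
import Cfsg.Agent.H9.PBasic

set_option autoImplicit false
set_option linter.unusedSectionVars false

namespace H79.C6

open Matrix Cfsg.Geo H25 Equiv H53.C6

universe u

/-- Lifting a centralising element through a kernel in which `P` has no fixed `p`-element. -/
theorem exists_lift {X H : Type*} [Group X] [Finite X] [Group H] (f : X →* H) {p : ℕ}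
    [Fact p.Prime] {P : X} (hP : P ^ p = 1)
    (hK : ∀ x, f x = 1 → Commute x P → (∃ n, x ^ p ^ n = 1) → x = 1) {c : X}
    (hc : Commute (f c) (f P)) : ∃ y, f y = f c ∧ Commute y P := by
  have h1 : IsPGroup p (Subgroup.zpowers P) := H98.isPGroup_zpowers (k := 1) (by rw [pow_one, hP])
  have h2 : H98.IsSyl p (Subgroup.zpowers P) ((Subgroup.zpowers (f P)).comap f) := by
    refine ⟨Subgroup.zpowers_le.2 (Subgroup.mem_zpowers (f P)), h1, fun S hS a b => ?_⟩
    have h3 : (f.comp S.subtype).ker = ⊥ := by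
      by_contra h
      obtain ⟨x, x1, x2, x3⟩ := H9.exists_mem_center_orderOf_eq hS h
      have x4 := hK x x1 (congrArg Subtype.val
        (Subgroup.mem_center_iff.1 x2 ⟨P, a (Subgroup.mem_zpowers P)⟩)).symm
        ⟨1, by rw [pow_one, ← x3]; exact congrArg Subtype.val (pow_orderOf_eq_one x)⟩
      rw [show x = 1 from Subtype.ext x4, orderOf_one] at x3
      exact (Fact.out : p.Prime).one_lt.ne x3
    refine le_antisymm (fun s hs => ?_) a
    obtain ⟨i, hi⟩ := Subgroup.mem_zpowers_iff.1 (b hs)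
    have h4 := (MonoidHom.ker_eq_bot_iff _).1 h3 (a₁ := ⟨s, hs⟩)
      (a₂ := ⟨P ^ i, zpow_mem (a (Subgroup.mem_zpowers P)) i⟩) (by simp [hi])
    exact ⟨i, (congrArg Subtype.val h4).symm⟩
  have h3 : f (c * P * c⁻¹) = f P := by rw [map_mul, map_mul, map_inv, hc.eq, mul_inv_cancel_right]
  obtain ⟨g, hg, e⟩ := h2.exists_cj_le (Q := Subgroup.zpowers (c * P * c⁻¹))
    (H98.isPGroup_zpowers (k := 1) (by rw [pow_one, conj_pow, hP, mul_one, mul_inv_cancel]))
    (Subgroup.zpowers_le.2 (by rw [Subgroup.mem_comap, h3]; exact Subgroup.mem_zpowers _))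
  obtain ⟨i, hi⟩ := Subgroup.mem_zpowers_iff.1 hg
  obtain ⟨j, hj⟩ := Subgroup.mem_zpowers_iff.1 (e (H98.conj_mem_cj (Subgroup.mem_zpowers _)))
  have h4 : P ^ j * P⁻¹ = 1 := hK _ (by
      rw [hj, map_mul, map_mul, map_mul, h3, map_inv, ← hi, map_inv]; group)
    (((Commute.refl P).zpow_left j).mul_left (Commute.refl P).inv_left)
    ⟨1, by rw [pow_one, ← _root_.zpow_sub_one, ← zpow_natCast, ← _root_.zpow_mul, mul_comm,
      _root_.zpow_mul, zpow_natCast, hP, _root_.one_zpow]⟩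
  refine ⟨(P ^ i)⁻¹ * (g * c), by rw [map_mul, map_mul, map_inv, map_zpow, hi, inv_mul_cancel_left],
    Commute.mul_left ((Commute.refl P).zpow_left i).inv_left ?_⟩
  rw [mul_inv_eq_one.1 h4] at hj
  rw [commute_iff_eq, ← mul_inv_eq_iff_eq_mul]
  conv_rhs => rw [hj]
  group

variable {F : Type u} [Field F] {r : ℕ} [NeZero r] {m : ℕ}

variable (F r) in
/-- the centraliser of `t` -/
abbrev Ct : Subgroup (GL (ZMod r) F) := Subgroup.centralizer {tt F r}

theorem dp_comm (ω : Fˣ) {k : ℕ} (hk : Even k) : dp r ω k ∈ Ct F r := by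
  obtain ⟨j, rfl⟩ := hk
  rw [← two_mul]
  exact mem_cent_tt.2 (comm_dp_tt j)

theorem sc_mem_Ct (c : Fˣ) : sc (ZMod r) c ∈ Ct F r := mem_cent_tt.2 (sc_comm c _)

theorem tt_mem_Ct : tt F r ∈ Ct F r := mem_cent_tt.2 rfl

theorem even_of_comm {v : ZMod r → Fˣ} (h : Commute (dg v) (tt F r)) (i : ZMod r) :
    v (-i) = v i := by
  have := comm_tt_iff.1 h i i
  simpa [dg_val, Units.ext_iff] using this

theorem od_dg_tt (h : Half r m) {v : ZMod r → Fˣ} (hv : dg v * tt F r ∈ Ct F r) :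
    odm m (dg v * tt F r).val = -diagonal fun k => (v (ix r k) : F) := by
  have h1 : dg v ∈ Ct F r := (Subgroup.mul_mem_cancel_right _ tt_mem_Ct).1 hv
  have := congrArg Units.val (map_mul (od h) ⟨_, h1⟩ ⟨_, tt_mem_Ct⟩)
  rw [Units.val_mul, od_val, od_val, od_val, odm_dg h, odm_tt h, mul_neg, mul_one] at this
  exact this

theorem dp_pow_r {ω : Fˣ} (h : orderOf ω = r) (k : ℕ) : dp r ω k ^ r = 1 := by
  rw [dp_pow h]
  simp only [CharP.cast_eq_zero, zero_mul, w_zero]
  exact map_one dg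

theorem neg_one_ne : (-1 : ZMod 7) ≠ 1 := by decide

theorem pow_aux {x : F} (h : x ^ 7 = 1) {A B C i j a q : ℕ} (e : A + i * B + j * C = a + 7 * q) :
    x ^ A * (x ^ i) ^ B * (x ^ j) ^ C = x ^ a := by
  rw [← pow_mul, ← pow_mul, ← pow_add, ← pow_add, e, pow_add, pow_mul, h, one_pow, mul_one]

theorem jobQU : JobQU.{u} := by
  rintro dkb t3 F _ _ r _ ω G hf hb rfl ho nd yd hQ
  have : Fact (Nat.Prime 7) := ⟨by norm_num⟩
  have h := hf.ord
  let f := (od (F := F) half7).comp (G.subgroupOf (Ct F 7)).subtype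
  have fv : ∀ x : G.subgroupOf (Ct F 7), (f x).val = odm 3 x.1.1.val := fun _ => rfl
  have hS : specialLinear (Fin 3) F ≤ f.range := by
    refine t3 dkb F ω f.range (prim h) hf.gen hf.nsq ho.h13 (fun a b c => ?_) ?_ ?_
    · refine ⟨_, ⟨⟨⟨sc _ ω, sc_mem_Ct ω⟩, hb.sc ω⟩ ^ (5 * a + 5 * b + 5 * c) *
        ⟨⟨dp 7 ω 2, dp_comm ω (by decide)⟩, hb.p⟩ ^ (5 * a + 3 * b + 6 * c) *
        ⟨⟨dp 7 ω 4, dp_comm ω (by decide)⟩, hQ⟩ ^ (5 * a + 6 * b + 3 * c), rfl⟩, ?_⟩
      have h7 : (ω : F) ^ 7 = 1 := (prim h).pow_eq_one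
      simp only [map_mul, map_pow, Units.val_mul, Units.val_pow_eq_pow_val, fv, dp, ← dg_const,
        odm_dg half7, diagonal_pow, diagonal_mul_diagonal]
      ext i j
      fin_cases i <;> fin_cases j <;> simp [w, ix]
      · exact pow_aux h7 (i := 1) (j := 1) (q := 2 * a + 2 * b + 2 * c) (by ring)
      · exact pow_aux h7 (i := 4) (j := 2) (q := 5 * a + 4 * b + 5 * c) (by ring)
      · exact pow_aux h7 (i := 2) (j := 4) (q := 5 * a + 5 * b + 4 * c) (by ring)
    · exact ⟨_, ⟨⟨⟨hh F (ZMod.unitOfCoprime 2 (by norm_num)), mem_cent_tt.2 (comm_hh_tt _)⟩,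
        hb.hh _⟩, rfl⟩, odm_h7 _ rfl⟩
    · exact ⟨_, ⟨⟨⟨Ph 7 ω, mem_cent_tt.2 (comm_Ph_tt h)⟩, hb.ph⟩, rfl⟩, odm_Ph7 h⟩
  obtain ⟨c, hc⟩ := hS (x := dg ![1, -1, -1]) (mem_specialLinear.2 (by
    simp [det_dg, Fin.prod_univ_succ]))
  obtain ⟨y, y1, y2⟩ := exists_lift f (p := 7) (P := ⟨⟨dp 7 ω 2, dp_comm ω (by decide)⟩, hb.p⟩)
    (c := c) (Subtype.ext (Subtype.ext (dp_pow_r h 2))) (by
      rintro x x1 x2 ⟨n, x3⟩
      have x4 : x.1.1 ^ 7 ^ n = 1 := congrArg (fun z : G.subgroupOf (Ct F 7) => z.1.1) x3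
      have x5 := congrArg Units.val x1
      rw [fv] at x5
      obtain ⟨v, e | e⟩ := yd x.1.1 x.2 (congrArg (fun z : G.subgroupOf (Ct F 7) => z.1.1) x2.eq)
        (mem_cent_tt.1 x.1.2)
      · have a1 := even_of_comm (e ▸ mem_cent_tt.1 x.1.2)
        rw [e, odm_dg half7] at x5
        have a2 : ∀ k : Fin 3, v (ix 7 k) = 1 := fun k => Units.ext (by
          simpa using congrFun (congrFun x5 k) k)
        have a3 : ∀ i, i ≠ 0 → v i = 1 := fun i hi => by
          rcases half7.cover i with a | ⟨k, rfl | rfl⟩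
          · exact absurd a hi
          · exact a2 k
          · rw [a1, a2]
        have a4 := nd v (e ▸ x.2) 1
        rw [a3 1 one_ne_zero, one_pow, Finset.prod_eq_single 0 (fun i _ => a3 i) (by simp)] at a4
        refine Subtype.ext (Subtype.ext (e.trans ?_))
        rw [show v = 1 from funext fun i => by
          by_cases hi : i = 0
          · rw [hi]; exact a4.symm
          · exact a3 i hi]
        exact map_one dg
      · exfalso
        have a1 : Commute (dg v) (tt F 7) := mem_cent_tt.1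
          ((Subgroup.mul_mem_cancel_right _ tt_mem_Ct).1 (e ▸ x.1.2))
        obtain ⟨j, hj⟩ : Odd (7 ^ n) := Odd.pow (by decide)
        rw [e, a1.mul_pow, ← map_pow, hj, pow_succ (tt F 7), pow_mul, sq, tt_mul_tt, one_pow,
          one_mul] at x4
        have x6 := (dg_pm_inj (σ := af (-1) 0) (w := 1) (τ := 1) (x4.trans (by simp))).2
        exact neg_one_ne (by simpa using congrArg (fun σ : Perm (ZMod 7) => σ 1) x6))
    (by
      rw [hc]
      refine Units.ext ?_
      simp only [Units.val_mul, fv, dp, odm_dg half7]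
      simp only [dg_val, diagonal_mul_diagonal, mul_comm])
  have y3 := congrArg Units.val (y1.trans hc)
  rw [fv, dg_val] at y3
  have key : ∀ v : ZMod 7 → Fˣ, dg v ∈ G → (v (ix 7 (0 : Fin 3)) : F) = -v (ix 7 (1 : Fin 3)) →
      False := fun v hv e => by
    have a := congrArg Units.val ((nd v hv (ix 7 (0 : Fin 3))).trans (nd v hv (ix 7 (1 : Fin 3))).symm)
    rw [Units.val_pow_eq_pow_val, Units.val_pow_eq_pow_val, e] at a
    exact mul_ne_zero ho.h2 (pow_ne_zero 7 (v (ix 7 (1 : Fin 3))).ne_zero) (by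
      linear_combination -a)
  obtain ⟨v, e | e⟩ := yd y.1.1 y.2 (congrArg (fun z : G.subgroupOf (Ct F 7) => z.1.1) y2.eq)
    (mem_cent_tt.1 y.1.2)
  · rw [e, odm_dg half7] at y3
    have a := congrFun (congrFun y3 0) 0
    have b := congrFun (congrFun y3 1) 1
    simp at a b
    exact key v (e ▸ y.2) (by simp [a, b])
  · rw [e, od_dg_tt half7 (e ▸ y.1.2)] at y3
    have a := congrFun (congrFun y3 0) 0
    have b := congrFun (congrFun y3 1) 1
    simp at a b
    exact key v ((G.mul_mem_cancel_right hb.tt).1 (e ▸ y.2)) (by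
      rw [b, Units.val_one]; linear_combination -a)

end H79.C6
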