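/- Tower C6P (rows S5792, S5807), job CT7: involutions in the centraliser of `t` for `r = 7`. -/
import Cfsg.Agent.H79.C6QU

set_option autoImplicit false
set_option linter.unusedSectionVars false

namespace H79.C6

open Matrix Cfsg.Geo H25 Equiv H53.C6

universe u

/-- The final argument: an element inverted modulo a central involution. -/
theorem no_twist {X : Type*} [Group X] [Finite X] {s k τ : X} (hτ : ∀ x, x * τ = τ * x)
    (h2 : τ * τ = 1) (h1 : τ ≠ 1) (e : s * k * s⁻¹ = k⁻¹ * τ)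
    (hk : ∀ n a : ℕ, (k ^ n) ^ 2 ^ a = 1 → k ^ n = 1 ∨ k ^ n = τ) : False := by
  obtain ⟨a, n, ⟨j, hj⟩, hn⟩ := Nat.exists_eq_two_pow_mul_odd (orderOf_pos k).ne'
  have h3 : s * k ^ n * s⁻¹ = (k ^ n)⁻¹ * τ := by
    rw [← conj_pow, e, Commute.mul_pow (hτ _), inv_pow, hj, pow_succ τ, pow_mul τ, sq, h2, one_pow,
      one_mul]
  rcases hk n a (by rw [← pow_mul, mul_comm, ← hn, pow_orderOf_eq_one]) with h | h
  · rw [h] at h3
    exact h1 (by simpa using h3.symm)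
  · rw [h, hτ, mul_inv_cancel_right, inv_mul_cancel] at h3
    exact h1 h3

theorem mem_of_odd {X : Type*} [Group X] {L : Subgroup X} (h : L.index = 2) {x : X} {j : ℕ}
    (hx : x ^ (2 * j + 1) = 1) : x ∈ L := by
  rw [pow_succ, pow_mul, mul_eq_one_iff_inv_eq] at hx
  rw [← hx]
  exact inv_mem (pow_mem (Subgroup.sq_mem_of_index_two h x) j)

variable {F : Type u} [Field F] {ω : Fˣ} {G : Subgroup (GL (ZMod 7) F)}

/-- The action of `G ⊓ C(t)` on the odd functions. -/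
noncomputable def og (G : Subgroup (GL (ZMod 7) F)) : ↥(G ⊓ Ct F 7) →* GL (Fin 3) F :=
  (od half7).comp (Subgroup.inclusion inf_le_right)

theorem og_val (c : ↥(G ⊓ Ct F 7)) : (og G c).val = odm 3 c.1.val := rfl

/-- The elements of determinant one on both eigenspaces. -/
noncomputable def C1 (G : Subgroup (GL (ZMod 7) F)) : Subgroup ↥(G ⊓ Ct F 7) :=
  (specialLinear (ZMod 7) F).comap (G ⊓ Ct F 7).subtype ⊓ (specialLinear (Fin 3) F).comap (og G)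

theorem mem_C1 {c : ↥(G ⊓ Ct F 7)} : c ∈ C1 G ↔ c.1.val.det = 1 ∧ (odm 3 c.1.val).det = 1 :=
  and_congr mem_specialLinear mem_specialLinear

theorem C1_normal : (C1 G).Normal :=
  Subgroup.normal_inf_normal _ _ (hH := (MonoidHom.normal_ker _).comap _)
    (hK := (MonoidHom.normal_ker _).comap _)

theorem sc_eq_one {c : ↥(G ⊓ Ct F 7)} (hc : c ∈ C1 G) {μ : Fˣ} (e : c.1 = sc _ μ) : c = 1 := by
  obtain ⟨h1, h2⟩ := mem_C1.1 hc
  rw [e, coe_sc, det_smul, det_one, mul_one, ZMod.card] at h1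
  rw [e, odm_sc half7, det_smul, det_one, mul_one, Fintype.card_fin] at h2
  have : μ = 1 := Units.ext (by
    rw [Units.val_one]; linear_combination h1 - ((μ : F) ^ 4 + μ) * h2)
  exact Subtype.ext (by rw [e, this, map_one]; rfl)

/-- the unit `2` -/
def u2 : (ZMod 7)ˣ := ZMod.unitOfCoprime 2 (by norm_num)

theorem u2_cases (a : (ZMod 7)ˣ) : ∃ i < 3, a = u2 ^ i ∨ a = u2 ^ i * -1 := by
  revert a; decide

theorem u2_pow : u2 ^ 3 = 1 := by decide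

theorem hh_pow (a : (ZMod 7)ˣ) (i : ℕ) : hh F a ^ i = hh F (a ^ i) := by
  induction i with
  | zero => rw [pow_zero, pow_zero, hh_one]
  | succ i ih => rw [pow_succ, pow_succ, ih, hh_mul]

theorem sign_tt : Perm.sign (af (-1 : (ZMod 7)ˣ) 0) = -1 := by decide

theorem sign_u2 : Perm.sign (af u2 0) = 1 := by decide

namespace B

variable (hb : Base ω G)

/-- scalars -/
def s (μ : Fˣ) : ↥(G ⊓ Ct F 7) := ⟨sc _ μ, hb.sc μ, sc_mem_Ct μ⟩
/-- `P` -/
def P : ↥(G ⊓ Ct F 7) := ⟨dp 7 ω 2, hb.p, dp_comm ω (by decide)⟩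
/-- `h₂` -/
def h : ↥(G ⊓ Ct F 7) := ⟨hh F u2, hb.hh _, mem_cent_tt.2 (comm_hh_tt _)⟩
/-- `-t` -/
def τ : ↥(G ⊓ Ct F 7) :=
  ⟨sc _ (-1) * tt F 7, mul_mem (hb.sc _) hb.tt, mul_mem (sc_mem_Ct _) tt_mem_Ct⟩

theorem s_comm (μ : Fˣ) (x : ↥(G ⊓ Ct F 7)) : s hb μ * x = x * s hb μ := Subtype.ext (sc_comm μ _)

theorem τ_comm (x : ↥(G ⊓ Ct F 7)) : x * τ hb = τ hb * x := Subtype.ext (by
  change x.1 * (sc _ (-1) * tt F 7) = sc _ (-1) * tt F 7 * x.1
  rw [← mul_assoc, ← sc_comm, mul_assoc, (mem_cent_tt.1 x.2.2).eq, mul_assoc])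

theorem τ_sq : τ hb * τ hb = 1 := Subtype.ext (by
  change sc _ (-1) * tt F 7 * (sc _ (-1) * tt F 7) = 1
  rw [mul_assoc, ← mul_assoc (tt F 7), ← sc_comm, mul_assoc, tt_mul_tt, mul_one, ← map_mul,
    neg_mul_neg, one_mul, map_one])

theorem τ_ne (h2 : (2 : F) ≠ 0) : τ hb ≠ 1 := fun e => h2 (by
  have := congrArg (fun x : ↥(G ⊓ Ct F 7) => x.1.val 0 0) e
  simp [τ, coe_sc, tt_apply] at this
  linear_combination -this)

theorem og_τ : og G (τ hb) = 1 := by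
  have := congrArg Units.val (map_mul (od half7) ⟨_, sc_mem_Ct (-1 : Fˣ)⟩ ⟨_, tt_mem_Ct⟩)
  rw [Units.val_mul, od_val, od_val, od_val, odm_sc half7, odm_tt half7] at this
  exact Units.ext (this.trans (by simp))

theorem τ_mem : τ hb ∈ C1 G := by
  refine ⟨mem_specialLinear.2 ?_, (og_τ hb ▸ one_mem _ : og G (τ hb) ∈ specialLinear (Fin 3) F)⟩
  change (sc _ (-1) * tt F 7 : GL (ZMod 7) F).val.det = 1
  rw [Units.val_mul, det_mul, coe_sc, det_smul, det_one, ZMod.card, tt, hh, det_pm, sign_tt]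
  norm_num

theorem h_mem : h hb ∈ C1 G := mem_C1.2
  ⟨by change (hh F u2).val.det = 1; rw [hh, det_pm, sign_u2]; simp,
    by change (odm 3 (hh F u2).val).det = 1; rw [odm_h7 _ rfl, det_fin_three]; simp⟩

theorem h_pow : h hb ^ 3 = 1 := Subtype.ext (by
  change hh F u2 ^ 3 = 1
  rw [hh_pow, u2_pow, hh_one])

theorem P_mem (ho : orderOf ω = 7) : P hb ∈ C1 G := by
  have h7 : (ω : F) ^ 7 = 1 := (prim ho).pow_eq_one
  refine mem_C1.2 ⟨?_, ?_⟩
  · change (dp 7 ω 2).val.det = 1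
    rw [dp, det_dg]
    simp only [w, Units.val_pow_eq_pow_val, Finset.prod_pow_eq_pow_sum]
    rw [show ∑ i : ZMod 7, (i ^ 2).val = 7 * 2 by decide, pow_mul, h7, one_pow]
  · change (odm 3 (dp 7 ω 2).val).det = 1
    rw [dp, odm_dg half7, det_diagonal]
    simp only [w, Units.val_pow_eq_pow_val, Finset.prod_pow_eq_pow_sum]
    rw [show ∑ i : Fin 3, (ix 7 i ^ 2).val = 7 by decide, h7]

theorem fr [Finite F] (fr : JobFR.{u}) (hf : Fld 7 ω) (yp : YP ω G) {L : Subgroup ↥(G ⊓ Ct F 7)}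
    (hn : L.Normal) (h1 : L ≤ C1 G) (h2 : P hb ∈ L) (h3 : h hb ∈ L) (h4 : τ hb ∈ L)
    (c : ↥(G ⊓ Ct F 7)) : ∃ l ∈ L, ∃ μ, c = l * s hb μ := by
  obtain ⟨_, ⟨l, hl, rfl⟩, μ, a, e⟩ := fr F 7 ω G hf hb yp (L.map (G ⊓ Ct F 7).subtype)
    (by rintro _ ⟨l, -, rfl⟩; exact l.2.1) (by rintro _ ⟨l, -, rfl⟩; exact mem_cent_tt.1 l.2.2)
    (by
      rintro c hc h _ ⟨l, hl, rfl⟩
      exact ⟨_, hn.conj_mem l hl ⟨c, hc, mem_cent_tt.2 h⟩, rfl⟩)
    ⟨_, h2, rfl⟩ (by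
      rintro ⟨l, hl, e⟩
      have := congrArg (fun x : ↥(G ⊓ Ct F 7) => x.1.val 0 0) (sc_eq_one (h1 hl) e)
      have e' : l.1 = sc _ ω := e
      simp only [e', coe_sc] at this
      have h5 := hf.ord
      rw [show ω = 1 from Units.ext (by simpa using this), orderOf_one] at h5
      omega) c.1 c.2.1 (mem_cent_tt.1 c.2.2)
  obtain ⟨i, -, rfl | rfl⟩ := u2_cases a
  · refine ⟨l * h hb ^ i, mul_mem hl (pow_mem h3 i), μ, Subtype.ext (e.trans ?_)⟩
    change l.1 * sc _ μ * _ = l.1 * hh F u2 ^ i * sc _ μ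
    rw [hh_pow, mul_assoc, sc_comm, mul_assoc]
  · refine ⟨l * h hb ^ i * τ hb, mul_mem (mul_mem hl (pow_mem h3 i)) h4, -μ,
      Subtype.ext (e.trans ?_)⟩
    change l.1 * sc _ μ * _ = l.1 * hh F u2 ^ i * (sc _ (-1) * tt F 7) * sc _ (-μ)
    rw [hh_pow, mul_assoc, sc_comm, ← hh_mul, sc_comm (-1), mul_assoc, mul_assoc, mul_assoc,
      mul_assoc, ← map_mul, neg_mul_neg, one_mul, tt]

end B

theorem jobCT7 : JobCT7.{u} := by
  rintro fr ks inv3 F _ _ r _ ω G hf hb rfl h2 yp g hg hc hs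
  have nC : (C1 G).Normal := C1_normal
  have f1 := B.fr hb fr hf yp nC le_rfl (B.P_mem hb hf.ord) (B.h_mem hb) (B.τ_mem hb)
  have k1 : ∀ k : ↥(G ⊓ Ct F 7), og G k = 1 → ∀ n : ℕ, k ^ 2 ^ n = 1 → k = 1 ∨ k = B.τ hb :=
    fun k h n e => (ks F 7 ω G hf hb h2 yp k.1 k.2.1 (mem_cent_tt.1 k.2.2)
      ((od_eq_one_iff half7 _).1 h) n (congrArg Subtype.val e)).imp Subtype.ext Subtype.ext
  have sq : ∀ c ∈ C1 G, ∀ x ∈ C1 G, ∀ μ ν, c * B.s hb μ * (c * B.s hb μ) = B.s hb ν * x →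
      c * c = x := fun c hc x hx μ ν e => by
    refine mul_inv_eq_one.1 (sc_eq_one (mul_mem (mul_mem hc hc) (inv_mem hx)) (μ := ν * μ⁻¹ * μ⁻¹) ?_)
    have e1 : c * c * x⁻¹ = B.s hb ν * (B.s hb μ)⁻¹ * (B.s hb μ)⁻¹ := by
      have e2 : c * c * B.s hb μ * B.s hb μ = x * B.s hb ν := by
        rw [← B.s_comm hb ν, ← e, mul_assoc c (B.s hb μ), ← mul_assoc (B.s hb μ) c,
          B.s_comm hb μ c]; group
      have c1 : Commute x (B.s hb μ) := (B.s_comm hb μ x).symm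
      rw [mul_inv_eq_iff_eq_mul, mul_assoc, mul_assoc, ← c1.inv_right.eq, ← mul_assoc _ x,
        ← c1.inv_right.eq, ← mul_assoc, ← mul_assoc, B.s_comm, ← e2, mul_inv_cancel_right,
        mul_inv_cancel_right]
    rw [e1, map_mul, map_mul, map_inv]
    rfl
  obtain ⟨c, c1, μ, e⟩ := f1 ⟨g, hg, mem_cent_tt.2 hc⟩
  obtain ⟨ν, hν⟩ := mem_scalars_iff'.1 hs
  have c2 : c * c = 1 := sq c c1 1 (one_mem _) μ ν (by rw [← e, mul_one]; exact Subtype.ext hν)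
  have e' : g = c.1 * sc _ μ := congrArg Subtype.val e
  by_cases c3 : og G c = 1
  · rcases k1 c c3 1 (by rw [pow_one, pow_two, c2]) with rfl | rfl
    · exact Or.inl (by rw [e']; simpa using sc_mem μ)
    · refine Or.inr ?_
      rw [e', mul_assoc, sc_comm, ← mul_assoc]
      change sc _ (-1) * tt F 7 * tt F 7 * _ ∈ _
      rw [mul_assoc (sc _ _), tt_mul_tt, mul_one]
      exact mul_mem (sc_mem _) (sc_mem _)
  exfalso
  obtain ⟨s, s1, ξ, e1⟩ := f1 ⟨Ph 7 ω, hb.ph, mem_cent_tt.2 (comm_Ph_tt hf.ord)⟩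
  have s2 : s * s = B.τ hb := sq s s1 _ (B.τ_mem hb) ξ (-Units.mk0 _ (cast_ne_zero hf.ord)) (by
    rw [← e1]
    refine Subtype.ext ((Ph_sq hf.ord).trans ?_)
    change _ = sc _ _ * (sc _ (-1) * tt F 7)
    rw [← mul_assoc, ← map_mul, neg_mul_neg, mul_one])
  have s3 : og G s ≠ 1 := fun h => B.τ_ne hb h2 (by
    rcases k1 s h 2 (by
      rw [show 2 ^ 2 = 2 * 2 from rfl, pow_mul, pow_two s, s2, pow_two, B.τ_sq]) with a | a
    · rw [← s2, a, mul_one]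
    · rw [← s2, a, B.τ_sq])
  have : Fact (Nat.Prime 2) := ⟨Nat.prime_two⟩
  have hidx : ∀ L : Subgroup ((C1 G).map (og G)), L.index ≠ 2 := fun L hL => by
    have nL := Subgroup.normal_of_index_eq_two hL
    have mL : ∀ x (hx : x ∈ C1 G), (⟨og G x, x, hx, rfl⟩ : (C1 G).map (og G)) ∈ L →
        x ∈ C1 G ⊓ (L.map ((C1 G).map (og G)).subtype).comap (og G) :=
      fun x hx h => ⟨hx, _, h, rfl⟩
    have f2 := B.fr hb fr hf yp (L := C1 G ⊓ (L.map ((C1 G).map (og G)).subtype).comap (og G))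
      ⟨by
        rintro x ⟨x1, z, z1, z2⟩ a
        obtain ⟨l, hl, μ, rfl⟩ := f1 a
        rw [show l * B.s hb μ * x * (l * B.s hb μ)⁻¹ = l * x * l⁻¹ by
          rw [mul_assoc l, B.s_comm]; group]
        refine ⟨nC.conj_mem x x1 l, _, nL.conj_mem z z1 ⟨og G l, l, hl, rfl⟩, ?_⟩
        rw [map_mul, map_mul, map_inv, z2, map_mul, map_mul, map_inv]
        rfl⟩ inf_le_left
      (mL _ (B.P_mem hb hf.ord) (mem_of_odd hL (j := 3) (Subtype.ext (by
        change og G (B.P hb) ^ 7 = 1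
        rw [← map_pow, show B.P hb ^ 7 = 1 from Subtype.ext (dp_pow_r hf.ord 2), map_one]))))
      (mL _ (B.h_mem hb) (mem_of_odd hL (j := 1) (Subtype.ext (by
        change og G (B.h hb) ^ 3 = 1
        rw [← map_pow, B.h_pow, map_one]))))
      (mL _ (B.τ_mem hb) (mem_of_odd hL (j := 0) (Subtype.ext (by
        change og G (B.τ hb) ^ 1 = 1
        rw [B.og_τ, one_pow]))))
    have : L = ⊤ := by
      rw [eq_top_iff]
      rintro ⟨_, x, hx, rfl⟩ -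
      obtain ⟨l, ⟨l1, z, z1, z2⟩, μ, rfl⟩ := f2 x
      have := sc_eq_one ((Subgroup.mul_mem_cancel_left _ l1).1 hx) rfl
      have e3 : (⟨og G (l * B.s hb μ), _, hx, rfl⟩ : (C1 G).map (og G)) = z :=
        Subtype.ext (by
          change og G (l * B.s hb μ) = _
          rw [this, mul_one]
          exact z2.symm)
      exact e3 ▸ z1
    rw [this, Subgroup.index_top] at hL
    omega
  obtain ⟨_, ⟨y, -, rfl⟩, e2⟩ := inv3 F ((C1 G).map (og G)) h2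
    (by rintro _ ⟨x, hx, rfl⟩; exact hx.2) hidx _ ⟨c, c1, rfl⟩ _ ⟨s, s1, rfl⟩
    (orderOf_eq_prime (by rw [pow_two, ← map_mul, c2, map_one]) c3)
    (orderOf_eq_prime (by rw [pow_two, ← map_mul, s2, B.og_τ]) s3)
  have b2 : (y * c * y⁻¹)⁻¹ = y * c * y⁻¹ := inv_eq_of_mul_eq_one_right (by
    rw [conj_mul, c2, mul_one, mul_inv_cancel])
  have k2 : og G (s⁻¹ * (y * c * y⁻¹)) = 1 := by
    rw [map_mul, map_mul, map_mul, map_inv, map_inv, e2, inv_mul_cancel]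
  refine no_twist (s := s) (k := s⁻¹ * (y * c * y⁻¹)) (B.τ_comm hb) (B.τ_sq hb) (B.τ_ne hb h2) ?_
    fun n a h => k1 _ (by rw [map_pow, k2, one_pow]) a h
  rw [_root_.mul_inv_rev, b2, inv_inv, mul_inv_cancel_left, mul_assoc _ s,
    ← inv_eq_of_mul_eq_one_right (B.τ_sq hb), ← s2, _root_.mul_inv_rev, mul_inv_cancel_left]

end H79.C6
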