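import Cfsg.Agent.H79.Trans

/-! Indices of the lattice and of some sublattices. -/

set_option autoImplicit false
open Cfsg
open scoped Classical Pointwise

namespace H79

/-- reduction modulo 4 -/
def red4 : (GolayPt → ℤ) →+ (GolayPt → ZMod 4) :=
  AddMonoidHom.mk' (fun x i => (x i : ZMod 4)) (fun x y => by funext i; simp)

theorem red4_eq_iff (x y : GolayPt → ℤ) : red4 x = red4 y ↔ ∀ i, x i % 4 = y i % 4 := by
  rw [funext_iff]
  exact forall_congr' fun i => ZMod.intCast_eq_intCast_iff' _ _ 4

theorem exists_of_resid {m : ℤ} (hm : m = 0 ∨ m = 1) {c : Finset GolayPt} (hc : c ∈ GC) :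
    ∃ x ∈ leechLattice, ∀ i, x i % 4 = resid m c i := by
  rcases hm with rfl | rfl
  · refine ⟨_, leechLattice.sub_mem (sgn_mem_leech hc (m3_mem none)) (m3_mem none), fun i => ?_⟩
    simp only [Pi.sub_apply, sgn, m3, resid]
    split_ifs <;> norm_num
  · refine ⟨_, sgn_mem_leech hc (m3_mem none), fun i => ?_⟩
    simp only [sgn, m3, resid]
    split_ifs <;> norm_num

theorem resid_mod {m : ℤ} (hm : m = 0 ∨ m = 1) (c : Finset GolayPt) (i : GolayPt) :
    resid m c i % 4 = resid m c i := by
  unfold resid; split_ifs <;> omega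

theorem card_map_red4 : Nat.card (leechLattice.map red4) = 2 ^ 13 := by
  have : Nat.card (Bool × GC) = Nat.card (leechLattice.map red4) := by
    have hb : ∀ b : Bool, (if b then (1 : ℤ) else 0) = 0 ∨ (if b then (1 : ℤ) else 0) = 1 := by
      intro b; cases b <;> simp
    apply Nat.card_eq_of_bijective (fun p : Bool × GC =>
      (⟨red4 (resid (if p.1 then 1 else 0) p.2), by
        obtain ⟨x, hx, h⟩ := exists_of_resid (hb p.1) p.2.2
        exact ⟨x, hx, (red4_eq_iff _ _).2 fun i => by rw [h, resid_mod (hb p.1)]⟩⟩ :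
          leechLattice.map red4))
    constructor
    · rintro ⟨a, c⟩ ⟨b, d⟩ h
      have h1 := (red4_eq_iff _ _).1 (Subtype.mk.inj h)
      have h2 := resid_unique (hb a) (hb b) (fun i => resid_mod (hb a) c i)
        (fun i => (h1 i).trans (resid_mod (hb b) d i))
      refine Prod.ext ?_ (Subtype.ext h2.2)
      have := h2.1
      cases a <;> cases b <;> simp_all
    · rintro ⟨_, x, hx, rfl⟩
      obtain ⟨m, c, hm, hc, h⟩ := exists_resid hx
      refine ⟨(decide (m = 1), ⟨c, hc⟩), Subtype.ext ((red4_eq_iff _ _).2 fun i => ?_)⟩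
      have : (if decide (m = 1) = true then (1 : ℤ) else 0) = m := by
        rcases hm with rfl | rfl <;> simp
      simp only [this]
      rw [h, resid_mod hm]
  rw [← this, Nat.card_prod, Nat.card_eq_fintype_card (α := Bool), Fintype.card_bool]
  have : Nat.card GC = 4096 := H72.ncard_cSets
  rw [this]; norm_num

/-- parity of the coordinate sum -/
def sumPar : (GolayPt → ℤ) →+ ZMod 2 :=
  AddMonoidHom.mk' (fun x => ((∑ i, x i : ℤ) : ZMod 2)) (fun x y => by
    simp only [Pi.add_apply, Finset.sum_add_distrib, Int.cast_add])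

theorem index_sumPar : sumPar.ker.index = 2 := by
  rw [AddSubgroup.index_ker, AddMonoidHom.range_eq_top.2, AddSubgroup.card_top, Nat.card_zmod]
  intro a
  rcases zmod2_cases a with rfl | rfl
  · exact ⟨0, map_zero _⟩
  · exact ⟨Pi.single none 1, by
      simp only [sumPar, AddMonoidHom.mk'_apply, Finset.sum_pi_single', Finset.mem_univ, if_true,
        Int.cast_one]⟩

theorem leech_index : leechLattice.index = 2 ^ 36 := by
  have h1 : (sumPar.ker.map (nsmulAddMonoidHom 4)).index = 2 * 4 ^ 24 := by
    rw [AddSubgroup.index_map_of_injective, index_sumPar, AddSubgroup.index_range_nsmul,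
      Module.finrank_fintype_fun_eq_card, card_golayPt]
    intro x y h
    funext i
    have := congrFun h i
    simp only [nsmulAddMonoidHom_apply, Pi.smul_apply, nsmul_eq_mul] at this
    omega
  have h2 : sumPar.ker.map (nsmulAddMonoidHom 4) = red4.ker ⊓ leechLattice := by
    ext x
    simp only [AddSubgroup.mem_map, AddMonoidHom.mem_ker, AddSubgroup.mem_inf, sumPar,
      AddMonoidHom.mk'_apply, intCast_zmod2_eq_zero, nsmulAddMonoidHom_apply]
    rw [← map_zero red4, red4_eq_iff]
    constructor
    · rintro ⟨u, hu, rfl⟩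
      refine ⟨fun i => by simp, ?_⟩
      have := leech_pre.four_mem u hu
      exact_mod_cast this
    · rintro ⟨h, hx⟩
      have : ∀ i, ∃ u, x i = 4 * u := fun i => ⟨x i / 4, by have := h i; simp at this; omega⟩
      choose u hu using this
      have e : x = (4 : ℤ) • u := funext hu
      refine ⟨u, leech_pre.sum_even_of_four (e ▸ hx), ?_⟩
      rw [e]; rfl
  have h3 := AddSubgroup.relIndex_mul_index
    (inf_le_right : red4.ker ⊓ leechLattice ≤ leechLattice)
  rw [AddSubgroup.inf_relIndex_right, AddSubgroup.relIndex_ker, card_map_red4, ← h2, h1] at h3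
  omega

/-- a surjection of the lattice onto the code -/
def toCode : leechLattice →+ (GolayPt → ZMod 2) :=
  AddMonoidHom.mk' (fun x i => ((((x : GolayPt → ℤ) i - (x : GolayPt → ℤ) none) / 2 +
    (x : GolayPt → ℤ) none : ℤ) : ZMod 2)) (fun x y => by
      funext i
      rw [Pi.add_apply, ← Int.cast_add, ← sub_eq_zero, ← Int.cast_sub, intCast_zmod2_eq_zero]
      have := leech_parity x.2 i none
      simp only [AddSubgroup.coe_add, Pi.add_apply]
      omega)

theorem toCode_eq (x : leechLattice) {m : ℤ} {z : GolayPt → ℤ}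
    (hz : ∀ i, (x : GolayPt → ℤ) i = m + 2 * z i) :
    toCode x = red2 z + ((m + z none : ℤ) : ZMod 2) • (1 : GolayPt → ZMod 2) := by
  funext i
  simp only [toCode, AddMonoidHom.mk'_apply, red2, Pi.add_apply, Pi.smul_apply, Pi.one_apply,
    smul_eq_mul, mul_one, hz]
  rw [← Int.cast_add, ← sub_eq_zero, ← Int.cast_sub, intCast_zmod2_eq_zero]
  omega

theorem toCode_range : toCode.range = golayCode.toAddSubgroup := by
  apply le_antisymm
  · rintro _ ⟨x, rfl⟩
    obtain ⟨m, z, hz, hc, -⟩ := (mem_leech_iff _).1 x.2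
    rw [toCode_eq x hz]
    exact golayCode.add_mem hc (golayCode.smul_mem _ one_mem_golay)
  · intro w hw
    have h1 : (1 : GolayPt → ZMod 2) ∈ toCode.range := by
      refine ⟨⟨m3 none, m3_mem none⟩, ?_⟩
      funext i
      simp only [toCode, AddMonoidHom.mk'_apply, m3, if_true, Pi.one_apply]
      split_ifs <;> decide
    obtain ⟨z, hz, rfl⟩ := exists_two_z hw
    have h2 := toCode_eq ⟨_, hz⟩ (m := 0) (z := z) (fun i => by simp)
    rw [← sub_eq_iff_eq_add] at h2
    rw [← h2]
    refine toCode.range.sub_mem ⟨_, rfl⟩ ?_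
    rcases zmod2_cases ((0 + z none : ℤ) : ZMod 2) with h | h
    · rw [h, zero_smul]; exact toCode.range.zero_mem
    · rw [h, one_smul]; exact h1

theorem index_toCode : toCode.ker.index = 2 ^ 12 := by
  rw [AddSubgroup.index_ker, toCode_range]
  exact H72.natCard_golayCode

theorem dvd_of_mem_toCode_ker {x : leechLattice} (hx : toCode x = 0) :
    (32 : ℤ) ∣ sqNorm (x : GolayPt → ℤ) := by
  have h : ∀ i, (2 : ℤ) ∣ ((x : GolayPt → ℤ) i - (x : GolayPt → ℤ) none) / 2 +
      (x : GolayPt → ℤ) none := fun i => (intCast_zmod2_eq_zero _).1 (congrFun hx i)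
  have h0 := h none
  by_cases h4 : (4 : ℤ) ∣ (x : GolayPt → ℤ) none
  · have : ∀ i, ∃ u, (x : GolayPt → ℤ) i = 4 * u := fun i => ⟨(x : GolayPt → ℤ) i / 4, by
      have := h i; have := leech_parity x.2 i none; omega⟩
    choose u hu using this
    have e : (x : GolayPt → ℤ) = (4 : ℤ) • u := funext hu
    have h5 := leech_pre.sum_even_of_four (e ▸ x.2)
    have h6 := sum_sq_mod_two u
    rw [e, sqNorm_smul]
    have : sqNorm u = ∑ i, u i ^ 2 := rfl
    omega
  · have : ∀ i, ∃ u, (x : GolayPt → ℤ) i = 2 + 2 * (2 * u) := fun i =>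
      ⟨((x : GolayPt → ℤ) i - 2) / 4, by have := h i; have := leech_parity x.2 i none; omega⟩
    choose u hu using this
    rw [sqNorm_eq_of _ _ 2 hu]
    have h6 := sum_sq_mod_two u
    simp only [mul_pow, ← Finset.mul_sum]
    omega

end H79
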