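import Cfsg.Agent.H2.KpSpec
import Cfsg.Agent.H71.LnBlk

/-! Tower KP (S4202): the system of a group with blocks of size two. -/

set_option autoImplicit false
open Equiv MulAction H2.Ln H2.Kp

namespace H79.KpMkS

theorem jobMkS : MkS := by
  intro α _ _ M hT B hB h2
  have tr : ∀ a b : α, ∃ x ∈ M, x a = b := fun a b => by
    obtain ⟨x, hx⟩ := hT.exists_smul_eq a b
    exact ⟨x, x.2, hx⟩
  have su : ∀ a, a ∈ sp M := fun a => by
    obtain ⟨b, -, hb⟩ := Finset.exists_mem_ne (s := B) (by omega) a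
    obtain ⟨x, hx, e⟩ := tr a b
    exact mem_sp.2 ⟨x, hx, e ▸ hb⟩
  obtain ⟨c, β, ⟨p1, p2⟩, pr, cov, cd⟩ := H71.LnBlk.jobB1 α M B (fun a _ b _ => tr a b) hB
  rw [h2] at p1 cd
  choose π hπ using fun a => (cov a).1 (su a)
  have un : ∀ {a i}, a ∈ β i → π a = i := fun {a i} h => by
    by_contra k
    exact Finset.disjoint_left.1 (p2 _ _ k) (hπ a) h
  choose rp hrp using fun i => Finset.card_pos.1 (show 0 < (β i).card by rw [p1]; omega)
  have key : ∀ (x : M) a, π (x.1 (rp (π a))) = π (x.1 a) := fun x a => by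
    obtain ⟨j, hj⟩ := pr x x.2 (π a)
    rw [un (hj _ (hrp _)), un (hj _ (hπ a))]
  let f : M →* Function.End (Fin c) :=
    { toFun := fun x i => π (x.1 (rp i))
      map_one' := funext fun i => un (hrp i)
      map_mul' := fun x y => funext fun i => (key x (y.1 (rp i))).symm }
  have fb : ∀ i, (Finset.univ.filter fun a => π a = i) = β i := fun i =>
    Finset.ext fun a => by
      simp only [Finset.mem_filter, Finset.mem_univ, true_and]
      exact ⟨fun h => h ▸ hπ a, un⟩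
  let S : Sys M α (Fin c) 2 :=
    { ρ := M.subtype
      φ := f.toHomPerm
      π := π
      inj := M.subtype_injective
      eqv := fun x a => (key x a).symm
      fib := fun i => by rw [fb, p1]
      w12 := Or.inr rfl }
  refine ⟨c, S, ⟨fun i j => ?_⟩, fun C ⟨_, c2, c3, c4⟩ => ?_⟩
  · obtain ⟨x, hx, e⟩ := tr (rp i) (rp j)
    refine ⟨⟨S.φ ⟨x, hx⟩, ⟨x, hx⟩, trivial, rfl⟩, ?_⟩
    change π (x (rp i)) = j
    rw [e, un (hrp j)]
  · have cc : (C.biUnion β).card = 2 * C.card := by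
      rw [Finset.card_biUnion fun i _ j _ h => p2 i j h, Finset.sum_congr rfl fun i _ => p1 i]
      simp [mul_comm]
    have mb : ∀ a, a ∈ C.biUnion β ↔ π a ∈ C := fun a => by
      rw [Finset.mem_biUnion]
      exact ⟨fun ⟨i, h1, h3⟩ => un h3 ▸ h1, fun h => ⟨_, h, hπ a⟩⟩
    have := (Finset.card_le_univ (sp (S.im ⊤))).trans_eq (Fintype.card_fin c)
    refine ⟨C.biUnion β, ⟨fun a _ => su a, by omega, by omega, fun x hx a ha hxa b hb => ?_⟩, cc⟩
    rw [mb] at ha hxa hb ⊢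
    have := c4 (S.φ ⟨x, hx⟩) ⟨⟨x, hx⟩, trivial, rfl⟩ _ ha (S.eqv ⟨x, hx⟩ a ▸ hxa) _ hb
    exact key ⟨x, hx⟩ b ▸ this

end H79.KpMkS
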