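/- Relations, orbits and simplicity of permutation groups given by networks. -/
import Cfsg.Agent.H79.LRep
import Cfsg.Agent.H71.Prim

set_option autoImplicit false

namespace H79

open H72 H71 H81 MulAction

theorem word_eq {m N : ℕ} (hN : N ≤ 2 ^ m) {B : Subgroup (Equiv.Perm ℕ)} {L : List Net}
    (h : Good N B L) {r : Net} {w : List ℕ} (hw : wordChk m N L r w = true) :
    r.perm = (w.map (sPi L)).prod := by
  obtain ⟨h1, h2⟩ := H81.band_iff.1 hw
  have hs : ∀ c, sPi L c ∈ supp N := fun c => by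
    have : (nthD L Net.nil (c / 2)).perm ∈ supp N := fun i hi => Net.perm_of_le (h.nth _).1 hi
    unfold sPi
    split_ifs
    exacts [this, inv_mem this]
  have hp : (w.map (sPi L)).prod ∈ supp N := Subgroup.list_prod_mem _ fun x hx => by
    obtain ⟨c, -, rfl⟩ := List.mem_map.1 hx; exact hs c
  refine (mul_inv_eq_one.1 (perm_eq_one_of_planes hN _ (fun i hi => ?_) fun k hk i => ?_)).symm
  · exact (supp N).mul_mem hp ((supp N).inv_mem fun i hi => Net.perm_of_le h1 hi) i hi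
  · obtain ⟨y, h3, h4⟩ := wA_sound h w _ (of_allN h2 k hk)
    conv_rhs => rw [← Nat.eq_of_beq_eq_true h3, Net.testBit_app h1, h4]
    rfl

theorem word_pow {m N : ℕ} (hN : N ≤ 2 ^ m) {B : Subgroup (Equiv.Perm ℕ)} {L : List Net}
    (h : Good N B L) {w : List ℕ} {k : ℕ} (hw : wordChk m N L .nil (pw w k) = true) :
    (w.map (sPi L)).prod ^ k = 1 :=
  (evw_pw (sPi L) w k).symm.trans (word_eq hN h hw).symm

theorem fix_of_beq {N : ℕ} {r : Net} (h : r.valid N = true) {i : ℕ}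
    (e : Nat.beq (r.rapp (Nat.shiftLeft 1 i)) (Nat.shiftLeft 1 i) = true) : r.perm i = i := by
  have h6 := Net.testBit_rapp h (1 <<< i) i
  rw [show r.rapp (1 <<< i) = 1 <<< i from Nat.eq_of_beq_eq_true e, Nat.one_shiftLeft,
    Nat.testBit_two_pow_self, eq_comm, Nat.testBit_two_pow] at h6
  exact (of_decide_eq_true h6).symm

/-- the networks fix the point `b` -/
noncomputable def fixChk (L : List Net) (b : ℕ) : Bool :=
  allM (fun r => Nat.beq (r.rapp (Nat.shiftLeft 1 b)) (Nat.shiftLeft 1 b)) L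

theorem good_fix {N b : ℕ} {B : Subgroup (Equiv.Perm ℕ)} {L : List Net} (h : Good N B L)
    (e : fixChk L b = true) : Good N (B ⊓ stabilizer (Equiv.Perm ℕ) b) L :=
  fun r hr => ⟨(h r hr).1, (h r hr).2, fix_of_beq (h r hr).1 (of_allM e r hr)⟩

theorem orb_of_grow {N b lo hi : ℕ} {B : Subgroup (Equiv.Perm ℕ)} {L : List Net} (h : Good N B L)
    {sched : List ℕ} (e : growL L sched (subB (ival lo hi)) (Nat.shiftLeft 1 b) = true) {i : ℕ}
    (h1 : lo ≤ i) (h2 : i < hi) : ∃ g ∈ B, g b = i := by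
  obtain ⟨O, o1, o2⟩ := growL_sound (N := N) (Q := fun i => ∃ g ∈ B, g b = i)
    (fun r hr => ⟨(h r hr).1, by
      rintro _ ⟨g, hg, rfl⟩
      exact ⟨_ * g, B.mul_mem (h r hr).2 hg, rfl⟩⟩) sched _ (fun i hi => by
        have hi' : (1 <<< b).testBit i = true := hi
        rw [Nat.one_shiftLeft, Nat.testBit_two_pow] at hi'
        exact ⟨1, B.one_mem, by simpa using hi'⟩) e
  exact o1 i (of_subB o2 ((testBit_ival _ _ _).2 ⟨h1, h2⟩))

theorem inv_closure {N I : ℕ} {ra rb : Net} (ha : ra.valid N = true) (hb : rb.valid N = true)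
    (ea : Nat.beq (ra.rapp I) I = true) (eb : Nat.beq (rb.rapp I) I = true) :
    ∀ g ∈ Subgroup.closure {ra.perm, rb.perm}, ∀ i, I.testBit (g i) = I.testBit i := by
  intro g hg
  induction hg using Subgroup.closure_induction with
  | mem x hx =>
    rcases hx with rfl | rfl
    · intro i; rw [← Net.testBit_rapp ha, Nat.eq_of_beq_eq_true ea]
    · intro i; rw [← Net.testBit_rapp hb, Nat.eq_of_beq_eq_true eb]
  | one => intro i; rfl
  | mul x y _ _ hx hy => intro i; rw [Equiv.Perm.mul_apply, hx, hy]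
  | inv x _ hx => intro i; rw [← hx]; simp

theorem chainN_le' {m N : ℕ} {L : List Net} {K : Subgroup (Equiv.Perm ℕ)} (C : List NLv) :
    ∀ (B : Subgroup (Equiv.Perm ℕ)) [Finite B], K ≤ B → (∀ g ∈ K, ∀ v ∈ C, g v.1 = v.1) →
      (∀ v ∈ C, Good N B (v.2.1.map (nthD L .nil))) → chainN m L C = true →
      (C.map fun v => v.2.2.2).prod * Nat.card K ≤ Nat.card B := by
  induction C with
  | nil => intro B _ h _ _ _; simpa using Subgroup.card_le_of_le h
  | cons v C ih =>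
    intro B _ hK hf hS h
    obtain ⟨h1, h2⟩ := H81.band_iff.1 h
    obtain ⟨h2, h3⟩ := H81.band_iff.1 h2
    have : Finite ↥(stab (MonoidHom.id _) v.1 ⊓ B) :=
      Finite.of_injective _ (Subgroup.inclusion_injective inf_le_right)
    have h4 := ih (stab (MonoidHom.id _) v.1 ⊓ B)
      (fun g hg => ⟨hf g hg v List.mem_cons_self, hK hg⟩)
      (fun g hg u hu => hf g hg u (List.mem_cons_of_mem _ hu)) (fun u hu r hr => by
      obtain ⟨a1, a2⟩ := hS u (List.mem_cons_of_mem _ hu) r hr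
      obtain ⟨i, hi, rfl⟩ := List.mem_map.1 hr
      exact ⟨a1, fix_of_beq a1 (of_allM (of_allM h2 u hu) i hi), a2⟩) h3
    obtain ⟨O, o1, o2⟩ := growL_sound (N := N) (Q := fun i => i ∈ orb (MonoidHom.id _) B v.1)
      (fun r hr => ⟨(hS v List.mem_cons_self r hr).1, by
        rintro _ ⟨g, hg, rfl⟩
        exact ⟨_ * g, B.mul_mem (hS v List.mem_cons_self r hr).2 hg, rfl⟩⟩) _ _ (fun i hi => by
          have hi' : (1 <<< v.1).testBit i = true := hi
          rw [Nat.one_shiftLeft, Nat.testBit_two_pow] at hi'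
          exact ⟨1, B.one_mem, by simpa using hi'⟩) h1
    rw [List.map_cons, List.prod_cons, card_eq_orb_mul (MonoidHom.id _) B v.1, mul_assoc]
    exact Nat.mul_le_mul (H74.ncard_bits o2 ▸ Set.ncard_le_ncard o1 (H74.orb_finite _ B _)) h4

theorem eq_one_of_chain {m N : ℕ} {L : List Net} {C : List NLv} {B : Subgroup (Equiv.Perm ℕ)}
    [Finite B] (hL : Good N B L) (h : chainN m L C = true)
    (hB : Nat.card B ≤ (C.map fun v => v.2.2.2).prod) {g : Equiv.Perm ℕ} (hg : g ∈ B)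
    (e : ∀ v ∈ C, g v.1 = v.1) : g = 1 := by
  have h1 := chainN_le' (K := Subgroup.zpowers g) C B (Subgroup.zpowers_le.2 hg) (fun x hx v hv =>
    (Subgroup.zpowers_le (H := stabilizer (Equiv.Perm ℕ) v.1)).2 (e v hv) hx)
    (fun v _ => hL.idx _) h
  have h2 : 0 < Nat.card B := Nat.card_pos
  have : Finite (Subgroup.zpowers g) :=
    Finite.of_injective _ (Subgroup.inclusion_injective (Subgroup.zpowers_le.2 hg))
  rw [← Subgroup.zpowers_eq_bot, ← Subgroup.card_le_one_iff_eq_bot]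
  by_contra c
  nlinarith

/-- a rotation that moves `[0, n)` to `[s, s + n)` -/
def rot (s n : ℕ) : Equiv.Perm ℕ where
  toFun i := if i < n then s + i else if i < n + s then i - n else i
  invFun i := if i < s then i + n else if i < s + n then i - s else i
  left_inv i := by dsimp only; split_ifs <;> omega
  right_inv i := by dsimp only; split_ifs <;> omega

theorem rot_lt {s n i : ℕ} (h : i < n) : rot s n i = s + i := if_pos h

theorem simple_of_nets {N : ℕ} {ra rb : Net} {B : Subgroup (Equiv.Perm ℕ)} [Finite B]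
    (hB : B = Subgroup.closure {ra.perm, rb.perm}) (hL : Good N B [rb, ra]) (s n r : ℕ) (c : ℕ → ℕ)
    (hn : 1 < n) (hc0 : c 0 = 1) (hcr : c r = n) (hmono : ∀ j < r, c j < c (j + 1))
    (hle : ∀ j < r, c (j + 1) ≤ n)
    (har : ∀ F ∈ (Finset.range r).powerset, (1 + ∑ j ∈ F, (c (j + 1) - c j)) ∣ n →
      F = ∅ ∨ 1 + ∑ j ∈ F, (c (j + 1) - c j) = n)
    (ea : Nat.beq (ra.rapp (ival s (s + n))) (ival s (s + n)) = true)
    (eb : Nat.beq (rb.rapp (ival s (s + n))) (ival s (s + n)) = true) {sched : List ℕ}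
    (htr : growL [rb, ra] sched (subB (ival s (s + n))) (Nat.shiftLeft 1 s) = true)
    {S : List Net} (hS : Good N B S) (hS' : fixChk S s = true) {sc : List (List ℕ)}
    (horb : allN (fun j => growL S (nthD sc [] j) (subB (ival (s + c j) (s + c (j + 1))))
      (Nat.shiftLeft 1 (s + c j))) r = true)
    (hf : ∀ g ∈ B, (∀ i < n, g (s + i) = s + i) → g = 1) {p m k l : ℕ} [Fact p.Prime]
    (h1 : p ∣ n) (h2 : ¬ p ^ 2 ∣ Nat.card B) (hm : N ≤ 2 ^ m)
    (e1 : wordChk m N [rb, ra] .nil (pw [2] p) = true)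
    (e2 : wordChk m N [rb, ra] .nil (pw [0] k) = true)
    (e3 : wordChk m N [rb, ra] .nil (pw [2, 0] l) = true) (hc : l.Coprime k) :
    IsSimpleGroup B := by
  let ρ : B →* Equiv.Perm ℕ := (MulAut.conj (rot s n)⁻¹).toMonoidHom.comp B.subtype
  have hρ : ∀ (g : B) i j, i < n → j < n → (ρ g i = j ↔ (g : Equiv.Perm ℕ) (s + i) = s + j) :=
    fun g i j hi hj => by
      change (rot s n)⁻¹ ((g : Equiv.Perm ℕ) ((rot s n)⁻¹⁻¹ i)) = j ↔ _
      rw [inv_inv, Equiv.Perm.inv_eq_iff_eq, rot_lt hi, rot_lt hj]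
  have hinv : ∀ (g : B), ∀ i < n, ∃ j < n, (g : Equiv.Perm ℕ) (s + i) = s + j := fun g i hi => by
    have := inv_closure (hL ra (by simp)).1 (hL rb (by simp)).1 ea eb g (hB ▸ g.2) (s + i)
    rw [(testBit_ival s (s + n) (s + i)).2 ⟨by omega, by omega⟩, testBit_ival] at this
    exact ⟨(g : Equiv.Perm ℕ) (s + i) - s, by omega, by omega⟩
  have ht : orb ρ ⊤ 0 = Set.Ico 0 n := by
    ext i
    constructor
    · rintro ⟨g, -, rfl⟩
      obtain ⟨j, hj, e⟩ := hinv g 0 (by omega)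
      rw [(hρ g 0 j (by omega) hj).2 e]
      exact ⟨by omega, hj⟩
    · intro hi
      obtain ⟨g, hg, e⟩ := orb_of_grow hL htr (i := s + i) (by omega) (by have := hi.2; omega)
      exact ⟨⟨g, hg⟩, trivial, (hρ _ 0 i (by omega) hi.2).2 e⟩
  have ha : ra.perm ∈ B := (hL ra (by simp)).2
  have hb : rb.perm ∈ B := (hL rb (by simp)).2
  have r1 : ra.perm ^ p = 1 := by simpa [sPi, nthD] using word_pow hm hL e1
  have r2 : rb.perm ^ k = 1 := by simpa [sPi, nthD] using word_pow hm hL e2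
  have r3 : (ra.perm * rb.perm) ^ l = 1 := by simpa [sPi, nthD] using word_pow hm hL e3
  refine simple_of_max (isCoatom_stab ρ n r c hn ht hc0 hcr hmono (fun j hj i h1 h2 => ?_) har) ?_
    (p := p) (k := 1) (by rwa [index_stab, ht, ncard_Ico', pow_one]) h2 (x := ⟨_, ha⟩) (j := 1)
    (Subtype.ext (by simpa using r1)) ?_
  · have := hmono j hj
    have := hle j hj
    obtain ⟨g, hg, e⟩ := orb_of_grow (good_fix hS hS') (of_allN horb j hj) (i := s + i) (by omega)
      (by omega)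
    exact ⟨⟨g, hg.1⟩, (hρ _ 0 0 (by omega) (by omega)).2 hg.2,
      (hρ _ _ _ (by omega) (by omega)).2 e⟩
  · refine eq_bot_iff.2 fun x hx => Subtype.ext (hf _ x.2 fun i hi => (hρ x i i hi hi).1 ?_)
    obtain ⟨g, -, rfl⟩ : i ∈ orb ρ ⊤ 0 := by rw [ht]; exact ⟨by omega, hi⟩
    have h1 : ρ (g⁻¹ * x * g⁻¹⁻¹) 0 = 0 := hx g⁻¹
    rw [inv_inv, map_mul, map_mul, map_inv] at h1
    simpa [Equiv.symm_apply_eq] using h1
  · have m1 : (⟨_, ha⟩ : B) ∈ Subgroup.normalClosure {(⟨_, ha⟩ : B)} :=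
      Subgroup.subset_normalClosure rfl
    have m2 : (⟨_, hb⟩ : B) ∈ Subgroup.normalClosure {(⟨_, ha⟩ : B)} :=
      mem_normal_of_coprime m1 (Subtype.ext r2) (Subtype.ext r3) hc
    refine eq_top_iff.2 fun x _ => ?_
    obtain ⟨y, hy, e⟩ : x.1 ∈ (Subgroup.normalClosure {(⟨_, ha⟩ : B)}).map B.subtype :=
      (Subgroup.closure_le (k := {ra.perm, rb.perm}) _).2 (by
        rintro _ (rfl | rfl)
        exacts [⟨_, m1, rfl⟩, ⟨_, m2, rfl⟩]) (hB.le x.2)
    rwa [← Subtype.ext e]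

/-- a simple group acts on the cosets of a proper subgroup -/
theorem perm_realization {Q : Type*} [Group Q] [Finite Q] [IsSimpleGroup Q] (K : Subgroup Q)
    {n : ℕ} [NeZero n] (hn : K.index = n) (h1 : n ≠ 1) :
    ∃ H : Subgroup (Equiv.Perm (Fin n)), Nonempty (Q ≃* H) ∧ IsPretransitive H (Fin n) ∧
      Nonempty (K ≃* stabilizer H (0 : Fin n)) := by
  classical
  have e0 : (Q ⧸ K) ≃ Fin n := Finite.equivFinOfCardEq hn
  obtain ⟨e, he⟩ : ∃ e : (Q ⧸ K) ≃ Fin n, e ((1 : Q) : Q ⧸ K) = 0 :=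
    ⟨e0.trans (Equiv.swap (e0 ((1 : Q) : Q ⧸ K)) 0), Equiv.swap_apply_left _ _⟩
  let f : Q →* Equiv.Perm (Fin n) :=
    (Equiv.permCongrHom e).toMonoidHom.comp (toPermHom Q (Q ⧸ K))
  have hf : ∀ g i, f g i = e (g • e.symm i) := fun g i => rfl
  have h0 : ∀ g, f g 0 = 0 ↔ g ∈ K := fun g => by
    rw [hf, ← he, Equiv.symm_apply_apply, e.apply_eq_iff_eq, eq_comm]
    change ((1 : Q) : Q ⧸ K) = ((g * 1 : Q) : Q ⧸ K) ↔ _
    simp [QuotientGroup.eq]
  have hinj : Function.Injective f := inj_of_simple fun h => h1 (by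
    rw [← hn, Subgroup.index_eq_one, eq_top_iff]
    exact fun g _ => (h0 g).1 (by
      rw [Subgroup.mem_bot.1 (h ▸ MonoidHom.mem_range.2 ⟨g, rfl⟩ : f g ∈ ⊥)]; rfl))
  refine ⟨f.range, ⟨MonoidHom.ofInjective hinj⟩, ⟨fun i j => ?_⟩,
    ⟨((MonoidHom.ofInjective hinj).subgroupMap K).trans (MulEquiv.subgroupCongr ?_)⟩⟩
  · obtain ⟨g, hg⟩ := exists_smul_eq Q (e.symm i) (e.symm j)
    exact ⟨⟨f g, g, rfl⟩, by change f g i = j; rw [hf, hg, Equiv.apply_symm_apply]⟩
  · ext ⟨_, g, rfl⟩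
    refine ⟨?_, fun h => ⟨g, (h0 g).1 h, rfl⟩⟩
    rintro ⟨k, hk, e⟩
    exact e ▸ (h0 k).2 hk

end H79
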