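/- Automorphisms of the lattice of the Rudvalis group given by matrices, and the action on the
lines spanned by minimal vectors. -/
import Cfsg.Agent.H79.RuMin

set_option autoImplicit false

namespace H79.Ru

open Cfsg Cfsg.Spor Finset H77 H72 H81 H71 MulAction
open scoped Pointwise

theorem smul_add' (g : fourRu) (x y : ruLattice) : g • (x + y) = g • x + g • y := g.2.1 x y

/-- the action as a homomorphism -/
def actH (g : fourRu) : ruLattice →+ ruLattice := AddMonoidHom.mk' (g • ·) (smul_add' g)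

theorem norm_smul' (g : fourRu) (x : ruLattice) :
    dot (g • x : ruLattice) (g • x : ruLattice) = dot x x := by
  rw [← ruNorm_eq, ← ruNorm_eq]; exact g.2.2.2 x

theorem dot_smul (g : fourRu) (x y : ruLattice) :
    dot (g • x : ruLattice) (g • y : ruLattice) = dot x y := by
  have h := norm_smul' g (x + y)
  rw [smul_add', AddSubgroup.coe_add, AddSubgroup.coe_add, dot_add_self, dot_add_self, norm_smul',
    norm_smul'] at h
  omega

/-- the minimal vectors -/
def ML : Set ruLattice := {x | dot x x = 16}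

theorem ML_card : ML.Finite ∧ ML.ncard ≤ 16240 :=
  ⟨Set.Finite.of_injOn (f := Subtype.val) (fun x hx => And.intro x.2 hx) Subtype.val_injective.injOn
    Mv_card.1, (Set.ncard_le_ncard_of_injOn (t := Mv) Subtype.val (fun x hx => And.intro x.2 hx)
      Subtype.val_injective.injOn Mv_card.1).trans Mv_card.2⟩

theorem mem_of_basis {K : AddSubgroup ruLattice} (h : ∀ k (hk : k < 56), ⟨_, w_mem hk⟩ ∈ K)
    (x : ruLattice) : x ∈ K := by
  obtain ⟨y, hy, e⟩ := lat_le (K := K.map ruLattice.subtype) (fun k hk => ⟨_, h k hk, rfl⟩) x.2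
  rwa [← Subtype.ext e]

instance finite_fourRu : Finite fourRu := by
  have := ML_card.1.to_subtype
  refine Finite.of_injective (fun (g : fourRu) (k : Fin 56) =>
    (⟨g • ⟨_, w_mem k.2⟩, (norm_smul' g _).trans (norm_w k.2)⟩ : ML)) fun g h e => ?_
  exact Subtype.ext (Equiv.ext (mem_of_basis (K := (actH g).eqLocus (actH h))
    fun k hk => congrArg Subtype.val (congrFun e ⟨k, hk⟩)))

theorem exists_el' (f : ruLattice →+ ruLattice) (h2 : ∀ x, f (ruI x) = ruI (f x))
    (h3 : ∀ x, dot (f x) (f x) = dot x x) : ∃ g : fourRu, ∀ x, g • x = f x := by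
  have hi : Function.Injective f := (injective_iff_map_eq_zero f).2 fun x hx =>
    Subtype.ext (eq_zero_of_dot (by rw [← h3, hx]; exact dot_zero _))
  have hb := (ML_card.1.injOn_iff_bijOn_of_mapsTo (f := f) fun x hx => (h3 x).trans hx).1 hi.injOn
  have hs : Function.Surjective f := mem_of_basis (K := f.range) fun k hk => by
    obtain ⟨y, -, e⟩ := hb.surjOn (show (⟨_, w_mem hk⟩ : ruLattice) ∈ ML from norm_w hk)
    exact ⟨y, e⟩
  exact ⟨⟨Equiv.ofBijective f ⟨hi, hs⟩, f.map_add, h2, fun x => by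
    rw [ruNorm_eq, ruNorm_eq]; exact h3 x⟩, fun _ => rfl⟩

theorem exists_io : ∃ g : fourRu, ∀ x, g • x = ruI x :=
  exists_el' (AddMonoidHom.mk' ruI fun x y => Subtype.ext (smul_add _ _ _)) (fun _ => rfl) fun x => by
    rw [← ruNorm_eq, ← ruNorm_eq]
    refine sum_congr rfl fun p _ => ?_
    change (gI * _).norm = _
    rw [Zsqrtd.norm_mul, show gI.norm = 1 by decide, one_mul]

/-- multiplication by `i` -/
noncomputable def io : fourRu := exists_io.choose

theorem io_smul (x : ruLattice) : io • x = ruI x := exists_io.choose_spec x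

theorem coe_io (x : ruLattice) : ((io • x : ruLattice) : RuVec) = mp 0 x := by rw [io_smul]; rfl

theorem four_ext {g h : fourRu} (e : ∀ x : ruLattice, g • x = h • x) : g = h :=
  Subtype.ext (Equiv.ext e)

theorem io_comm (g : fourRu) : g * io = io * g :=
  four_ext fun x => by rw [mul_smul, mul_smul, io_smul, io_smul]; exact g.2.2.1 x

theorem io_sq (x : ruLattice) : (io ^ 2) • x = -x := by
  rw [sq, mul_smul, io_smul, io_smul]
  refine Subtype.ext ?_
  change gI • gI • (x : RuVec) = -(x : RuVec)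
  rw [smul_smul, show gI * gI = -1 by decide, neg_one_smul]

theorem eq_zero_of_neg {x : ruLattice} (h : -x = x) : x = 0 :=
  Subtype.ext (ext_co fun p _ => by
    have := congrArg (fun y : ruLattice => co y p) h
    simp only [AddSubgroup.coe_neg, co_neg] at this
    rw [AddSubgroup.coe_zero, co_zero]; omega)

theorem ne_zero_of_ML {x : ruLattice} (hx : x ∈ ML) : x ≠ 0 := by
  rintro rfl
  have : dot 0 0 = 16 := hx
  simp [dot_zero] at this

theorem io_four : io ^ 4 = 1 :=
  four_ext fun x => by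
    rw [show 4 = 2 + 2 from rfl, pow_add, mul_smul, io_sq, io_sq, neg_neg, one_smul]

theorem orderOf_io : orderOf io = 4 :=
  orderOf_eq_prime_pow (p := 2) (n := 1) (fun h => ne_zero_of_ML
    (show (⟨_, w_mem (k := 0) (by norm_num)⟩ : ruLattice) ∈ ML from norm_w (by norm_num))
    (eq_zero_of_neg (by rw [← io_sq, show io ^ 2 = 1 from h, one_smul]))) io_four

/-- the scalars -/
noncomputable def zI : Subgroup fourRu := Subgroup.zpowers io

theorem io_mem : io ∈ zI := Subgroup.mem_zpowers io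

theorem card_zI : Nat.card zI = 4 := (Nat.card_zpowers io).trans orderOf_io

theorem zI_cases {z : fourRu} (h : z ∈ zI) : ∃ u < 4, z = io ^ u := by
  classical
  obtain ⟨u, hu, e⟩ := mem_image.1 (mem_zpowers_iff_mem_range_orderOf.1 h)
  exact ⟨u, by rwa [mem_range, orderOf_io] at hu, e.symm⟩

theorem zI_le : zI ≤ Subgroup.center fourRu :=
  Subgroup.zpowers_le.2 (Subgroup.mem_center_iff.2 io_comm)

theorem zI_comm {z : fourRu} (h : z ∈ zI) (g : fourRu) : g * z = z * g :=
  Subgroup.mem_center_iff.1 (zI_le h) g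

theorem zI_fix {z : fourRu} (h : z ∈ zI) {x : ruLattice} (hx : x ∈ ML) (e : z • x = x) : z = 1 := by
  obtain ⟨u, hu, rfl⟩ := zI_cases h
  have h2 : (io ^ 2) • x ≠ x := fun e => ne_zero_of_ML hx (eq_zero_of_neg (by rwa [← io_sq]))
  have h3 : ∀ k, ((io ^ u) ^ k) • x = x := fun k => (stabilizer fourRu x).pow_mem e k
  interval_cases u
  · rfl
  · exact absurd (by simpa using h3 2) h2
  · exact absurd e h2
  · refine absurd ?_ h2
    have := h3 2
    rwa [← pow_mul, show 3 * 2 = 4 + 2 from rfl, pow_add, io_four, one_mul] at this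

/-- four times the map with the given rows -/
noncomputable def mulF (F : ℕ → ℕ → ℕ) (x : RuVec) : RuVec := mkV fun q => dot (vf (F q)) x

theorem co_mulF (F : ℕ → ℕ → ℕ) (x : RuVec) {q : ℕ} (hq : q < 56) :
    co (mulF F x) q = ∑ p ∈ range 56, ((F q p : ℤ) - 16) * co x p := by
  rw [mulF, co_mkV _ hq, dot]
  exact sum_congr rfl fun p hp => by rw [co_vf _ (mem_range.1 hp)]

theorem mulF_add (F : ℕ → ℕ → ℕ) (x y : RuVec) : mulF F (x + y) = mulF F x + mulF F y :=
  ext_co fun q hq => by
    simp only [co_add, co_mulF _ _ hq, mul_add, sum_add_distrib]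

theorem dot_mulF (F : ℕ → ℕ → ℕ) (x y : RuVec) : dot (mulF F x) y =
    ∑ p ∈ range 56, (∑ q ∈ range 56, co y q * ((F q p : ℤ) - 16)) * co x p := by
  rw [dot, sum_congr rfl fun q hq => by rw [co_mulF _ _ (mem_range.1 hq), sum_mul], sum_comm]
  refine sum_congr rfl fun p _ => ?_
  rw [sum_mul]
  exact sum_congr rfl fun q _ => by ring

/-- the matrix of a list of rows -/
noncomputable def mx (R : List ℕ) (q : ℕ) : ℕ → ℕ := dk (nthD R 0 q)

/-- the rows define an automorphism of the lattice -/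
noncomputable def chkEl (R : List ℕ) : Bool :=
  band (allM okc R) <| band (chkOrth (mx R) (nthD R 0) 16) <|
  band (allN (fun k => frc (Nat.land (lc (vd k) (nthD R 0)) (Nat.mul (2 ^ 4 - 1) O56)) fun z =>
    memb 4 (nthD Wc 0) (dk z)) 56) <|
  allN (fun q => allN (fun p => Nat.beq (Nat.add (mF 0 (mx R q) p) (mF 0 (fun q => mx R q p) q))
    32) 56) 56

/-- `g` has the matrix `F` -/
def El (g : fourRu) (F : ℕ → ℕ → ℕ) : Prop := (∀ q < 56, ∀ p < 56, F q p ≤ 32) ∧
  ∀ x : ruLattice, (4 : ℤ) • ((g • x : ruLattice) : RuVec) = mulF F x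

theorem sg_sg : ∀ p < 56, sg 0 (sg 0 p) = p ∧ ng 0 (sg 0 p) = !ng 0 p := by decide +kernel

theorem dot_mp0 (x y : RuVec) : dot x (mp 0 y) = -dot (mp 0 x) y := by
  rw [dot, dot, ← sum_neg_distrib]
  refine sum_nbij' (sg 0) (sg 0) (fun p hp => mem_range.2 (sg_lt 0 (by norm_num) p (mem_range.1 hp)))
    (fun p hp => mem_range.2 (sg_lt 0 (by norm_num) p (mem_range.1 hp)))
    (fun p hp => (sg_sg p (mem_range.1 hp)).1) (fun p hp => (sg_sg p (mem_range.1 hp)).1)
    fun p hp => ?_
  have hp := mem_range.1 hp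
  rw [co_mp (by norm_num) _ hp, co_mp (by norm_num) _ (sg_lt 0 (by norm_num) p hp),
    (sg_sg p hp).1, (sg_sg p hp).2]
  cases ng 0 p <;> simp

/-- the matrix times `i` -/
def iR (F : ℕ → ℕ → ℕ) (q p : ℕ) : ℕ := mF 0 (fun q => F q p) q

theorem mulF_iR {F : ℕ → ℕ → ℕ} (h : ∀ q < 56, ∀ p < 56, F q p ≤ 32) (x : RuVec) :
    mulF (iR F) x = mp 0 (mulF F x) :=
  ext_co fun q hq => by
    have h1 := sg_lt 0 (by norm_num) q hq
    rw [co_mp (by norm_num) _ hq, co_mulF _ _ hq, co_mulF _ _ h1]
    simp only [iR, mF]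
    cases ng 0 q
    · rfl
    · rw [cond_true, ← sum_neg_distrib]
      refine sum_congr rfl fun p hp => ?_
      have := h _ h1 p (mem_range.1 hp)
      rw [cond_true, show Nat.sub 32 (F (sg 0 q) p) = 32 - F (sg 0 q) p from rfl, Nat.cast_sub this]
      push_cast; ring

theorem exists_el {R : List ℕ} (h : chkEl R = true) : ∃ g : fourRu, El g (mx R) := by
  simp only [chkEl, band_iff] at h
  obtain ⟨h1, h2, h3, h4⟩ := h
  have hF : ∀ q < 56, ∀ p < 56, mx R q p ≤ 32 := fun q _ => okc_le' (okc_nth h1 q)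
  have hI : ∀ x ∈ ruLattice, ∃ y ∈ ruLattice, mulF (mx R) x = (4 : ℤ) • y := fun x hx =>
    exists_span (fun _ => w_mem) fun k hk => mem_dvdS.1 (lat_le
      (K := (dvdS (4 * 4) (vf (vd k))).comap (AddMonoidHom.mk' _ (mulF_add (mx R)))) (fun l hl => by
        have a := of_allN h3 k hk
        rw [frc_eq] at a
        have b : ∀ p < 56, dk (Nat.land (lc (vd k) (nthD R 0)) (Nat.mul (2 ^ 4 - 1) O56)) p =
            (∑ q ∈ range 56, vd k q * dg (nthD R 0 q) p) % 2 ^ 4 := fun p hp => by
          rw [dk_eq, dg_mask _ le_rfl hp, dg_lc (fun q _ => vd_le hk q) (fun q _ => okc_nth h1 q) hp]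
        have c := of_membW le_rfl (fun p hp => by rw [b p hp]; omega) a hl
        refine mem_dvdS.2 ?_
        change 4 * 4 ∣ dot (mulF (mx R) _) _
        rw [dot_mulF]
        refine (Int.ModEq.dvd_iff (Int.ModEq.sum (n := 16) fun p hp => ?_)).1 c
        have hp := mem_range.1 hp
        refine Int.ModEq.mul_right _ ?_
        have e : ∑ q ∈ range 56, co (vf (vd k)) q * ((mx R q p : ℤ) - 16) =
            ∑ q ∈ range 56, ((vd k q : ℤ) - 16) * ((dg (nthD R 0 q) p : ℤ) - 16) :=
          sum_congr rfl fun q hq => by rw [co_vf _ (mem_range.1 hq), mx, dk_eq]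
        rw [co_vf _ hp, b p hp, e, sum_off, Int.ModEq]
        omega) hx)
  choose! f f1 f2 using hI
  obtain ⟨g, hg⟩ := exists_el' (AddMonoidHom.mk' (fun x : ruLattice => (⟨f x, f1 x x.2⟩ : ruLattice))
    fun x y => Subtype.ext (smul_cancel (a := 4) (by norm_num) (by
      change (4 : ℤ) • f (x + y : ruLattice) = (4 : ℤ) • (f x + f y)
      rw [smul_add, ← f2 _ x.2, ← f2 _ y.2, ← f2 _ (x + y).2, ← mulF_add]; rfl)))
    (fun x => Subtype.ext (smul_cancel (a := 4) (by norm_num) (by
      change (4 : ℤ) • f (ruI x) = (4 : ℤ) • gI • f x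
      rw [smul_comm, ← f2 _ x.2, ← f2 _ (ruI x).2]
      change mulF _ (mp 0 x) = mp 0 _
      rw [← mulF_iR hF]
      refine ext_co fun q hq => ?_
      rw [co_mulF (iR _) _ hq, mulF, co_mkV _ hq, dot_mp0, mp_vf (by norm_num) (hF q hq), dot,
        ← sum_neg_distrib]
      refine sum_congr rfl fun p hp => ?_
      have a : mF 0 (mx R q) p + iR (mx R) q p = 32 :=
        Nat.eq_of_beq_eq_true (of_allN (of_allN h4 q hq) p (mem_range.1 hp))
      rw [co_vf _ (mem_range.1 hp), ← neg_mul]
      exact congrArg (· * _) (by omega))))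
    fun x => by
      have a : dot (mulF (mx R) x) (mulF (mx R) x) = 16 * dot x x := by
        rw [dot_mulF, dot, mul_sum]
        refine sum_congr rfl fun p hp => ?_
        rw [sum_congr rfl fun q hq => by rw [co_mulF _ _ (mem_range.1 hq), sum_mul], sum_comm,
          ← mul_assoc, ← sum_ite_eq_of_mem' (range 56) p (fun p => 16 * co x p) hp]
        refine congrArg (· * _) (sum_congr rfl fun r hr => ?_)
        have b := of_chkOrth le_rfl hF (fun q _ => okc_nth h1 q) h2 (mem_range.1 hr) (mem_range.1 hp)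
        rw [sum_congr rfl fun q _ => mul_right_comm _ _ _, ← sum_mul]
        simp only [mx, dk_eq] at b ⊢
        rw [b]
        split_ifs <;> simp
      rw [f2 _ x.2, dot_zsmul, dot_comm, dot_zsmul] at a
      change dot (f x) (f x) = _
      omega
  exact ⟨g, hF, fun x => by rw [hg, f2 _ x.2]; rfl⟩

theorem El.io {g : fourRu} {F : ℕ → ℕ → ℕ} (h : El g F) : El (io * g) (iR F) :=
  ⟨fun q hq p hp => mF_le (by norm_num) (fun q hq => h.1 q hq p hp) q hq, fun x => by
    rw [mulF_iR h.1, ← h.2, mul_smul, coe_io]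
    exact smul_comm _ _ _⟩

theorem El.apply {g : fourRu} {F : ℕ → ℕ → ℕ} (h : El g F) {x : ruLattice} {d e : ℕ → ℕ}
    (hx : (x : RuVec) = vf d)
    (he : ∀ q < 56, dot (vf (F q)) (vf d) = 4 * ((e q : ℤ) - 16)) :
    ((g • x : ruLattice) : RuVec) = vf e :=
  smul_cancel (a := 4) (by norm_num) (by
    rw [h.2, hx]
    exact ext_co fun q hq => by rw [mulF, co_mkV _ hq, he q hq, co_zsmul, co_vf _ hq])

/-- direct test of the image of a vector -/
noncomputable def chkAp (F : ℕ → ℕ → ℕ) (d e : ℕ → ℕ) : Bool :=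
  allN (fun q => Nat.beq (Nat.add (phi (F q) d) 64)
    (Nat.add (phi (F q) fun _ => 16) (Nat.mul 4 (e q)))) 56

theorem El.of_chkAp {g : fourRu} {F : ℕ → ℕ → ℕ} (h : El g F) {x : ruLattice} {d e : ℕ → ℕ}
    (hx : (x : RuVec) = vf d) (hd : ∀ p < 56, d p ≤ 31) (he : chkAp F d e = true) :
    ((g • x : ruLattice) : RuVec) = vf e :=
  h.apply hx fun q hq => by
    have a : phi (F q) d + 64 = phi (F q) (fun _ => 16) + 4 * e q :=
      Nat.eq_of_beq_eq_true (of_allN he q hq)
    have := phi_eq (F q) hd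
    omega

end H79.Ru
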