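/- The action of the fourfold cover of the Rudvalis group on 4060 lines, from certificates. -/
import Cfsg.Agent.H79.RuAut

set_option autoImplicit false

namespace H79.Ru

open Cfsg Cfsg.Spor Finset H77 H72 H81 H71 MulAction
open scoped Pointwise

/-- all points -/
def o4 : ℕ := Nat.sub (Nat.shiftLeft 1 4060) 1

theorem testBit_ones' {n i : ℕ} : (Nat.sub (Nat.shiftLeft 1 n) 1).testBit i = true ↔ i < n := by
  change ((1 <<< n) - 1).testBit i = true ↔ _
  rw [Nat.one_shiftLeft, Nat.testBit_two_pow_sub_one, decide_eq_true_iff]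

theorem testBit_o4 {i : ℕ} : o4.testBit i = true ↔ i < 4060 := testBit_ones'

/-- zero accumulator -/
def Z10 : List ℕ := [0, 0, 0, 0, 0, 0, 0, 0, 0, 0]

theorem col_Z10 (i : ℕ) : col Z10 i = 0 := by simp [Z10, col]

/-- the positions where the matrix `F` maps the vectors `QL` to four times the vectors `YL` -/
noncomputable def genM (QL : List (List ℕ × List ℕ)) (F : ℕ → ℕ → ℕ)
    (YL : List (List ℕ × List ℕ)) : ℕ → ℕ → (ℕ → Bool) → Bool :=
  List.rec (motive := fun _ => ℕ → ℕ → (ℕ → Bool) → Bool) (fun _ m k => k m)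
    (fun Y _ ih q m k => repA 4 Y.2 Z10 fun A => linL QL (F q) 0 A fun R =>
      frc (Nat.add (phi (F q) fun _ => 16) 60) fun t => eqM R t m fun m' =>
      frc (Nat.succ q) fun q' => ih q' m' k) YL

theorem genM_spec {Qs : List (List ℕ)} (hQ : okQ Qs = true) (F : ℕ → ℕ → ℕ) (k : ℕ → Bool)
    (Ys : List (List ℕ)) (hY : ∀ Y ∈ Ys, Y.length = 5) : ∀ q m,
    genM (Qs.map (cpl o4)) F (Ys.map (cpl o4)) q m k = true → ∃ m', k m' = true ∧
      ∀ i < 4060, m'.testBit i = true → m.testBit i = true ∧ ∀ t < Ys.length,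
        dot (vf (F (q + t))) (vf (dv Qs i)) = 4 * ((dv Ys i t : ℤ) - 16) := by
  induction Ys with
  | nil => intro q m h; exact ⟨m, h, fun i _ hi => ⟨hi, fun t ht => absurd ht (by simp)⟩⟩
  | cons Y Ys ih =>
    intro q m h
    obtain ⟨A, h1, h2⟩ := repA_spec (Y.map (Nat.xor o4)) _ 4 Z10 h
    obtain ⟨R, h3, h4⟩ := lin_spec hQ h1
    rw [frc_eq] at h3
    obtain ⟨m', h5, h6⟩ := eqM_spec (fun m' => frc (Nat.succ q) fun q' =>
      genM (Qs.map (cpl o4)) F (Ys.map (cpl o4)) q' m' k) R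
      (Nat.add (phi (F q) fun _ => 16) 60) m
    obtain ⟨m'', h7, h8⟩ := ih (fun Z hZ => hY Z (List.mem_cons_of_mem _ hZ)) (q + 1) m'
      (h5.symm.trans h3)
    refine ⟨m'', h7, fun i hi hm => ?_⟩
    obtain ⟨a, b⟩ := h8 i hi hm
    obtain ⟨c, d⟩ := (h6 i).1 a
    refine ⟨c, fun t ht => ?_⟩
    cases t with
    | zero =>
      have e := col_cpl (testBit_o4.2 hi) Y
      have e2 := phi_eq (F q) (dv_le hQ i)
      rw [h4 i (testBit_o4.2 hi), h2, col_Z10] at d
      rw [hY Y List.mem_cons_self] at e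
      change _ = phi (F q) (fun _ => 16) + 60 at d
      change dot (vf (F q)) _ = 4 * ((col Y i : ℤ) - 16)
      omega
    | succ t =>
      rw [show q + (t + 1) = q + 1 + t by ring]
      exact b t (by simpa using ht)

/-- the network `r` describes the action of the matrix `R` on the lines -/
noncomputable def chkGen (Qs : List (List ℕ)) (R : List ℕ) (r : Net) : Bool :=
  band (r.valid 4096) <|
  band (allN (fun t => frc (Nat.shiftLeft 1 (Nat.add 4060 t)) fun x => Nat.beq (r.rapp x) x) 36) <|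
  prep o4 Qs fun QL => prep o4 (Qs.map (List.map r.rapp)) fun YL =>
  genM QL (mx R) YL 0 o4 fun m0 => genM QL (iR (mx R)) YL 0 o4 fun m1 =>
  genM QL (iR (iR (mx R))) YL 0 o4 fun m2 => genM QL (iR (iR (iR (mx R)))) YL 0 o4 fun m3 =>
  subB o4 (Nat.lor (Nat.lor m0 m1) (Nat.lor m2 m3))

theorem fix_of_rapp {N : ℕ} {r : Net} (h : r.valid N = true) {i : ℕ}
    (e : Nat.beq (r.rapp (Nat.shiftLeft 1 i)) (Nat.shiftLeft 1 i) = true) : r.perm i = i := by
  have h6 := Net.testBit_rapp h (1 <<< i) i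
  rw [show r.rapp (1 <<< i) = 1 <<< i from Nat.eq_of_beq_eq_true e, Nat.one_shiftLeft,
    Nat.testBit_two_pow_self, eq_comm, Nat.testBit_two_pow] at h6
  exact (of_decide_eq_true h6).symm

/-- the element `g` acts on the lines as the network `r` -/
def Stp (Qs : List (List ℕ)) (g : fourRu) (r : Net) : Prop :=
  r.valid 4096 = true ∧ r.perm ∈ supp 4060 ∧ ∀ i < 4060, ∃ z ∈ zI, ∀ x : ruLattice,
    (x : RuVec) = vf (dv Qs i) → (((z * g) • x : ruLattice) : RuVec) = vf (dv Qs (r.perm i))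

theorem of_chkGen {Qs : List (List ℕ)} (hQ : okQ Qs = true) {R : List ℕ} {r : Net} {g : fourRu}
    (hg : El g (mx R)) (h : chkGen Qs R r = true) : Stp Qs g r := by
  rw [chkGen, band_iff, band_iff, prep_eq, prep_eq] at h
  obtain ⟨h1, h2, h3⟩ := h
  have hl := Nat.eq_of_beq_eq_true (band_iff.1 hQ).1
  have hY : ∀ Y ∈ Qs.map (List.map r.rapp), Y.length = 5 := fun Y hY => by
    obtain ⟨Q, hq, rfl⟩ := List.mem_map.1 hY
    rw [List.length_map]
    exact Nat.eq_of_beq_eq_true (of_allM (band_iff.1 hQ).2 Q hq)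
  have hd : ∀ i t, dv (Qs.map (List.map r.rapp)) i t = dv Qs (r.perm i) t := fun i t => by
    rw [dv, dv, nthD_eq, nthD_eq, show ([] : List ℕ) = List.map r.rapp [] from rfl, List.getD_map]
    change col _ i = col (Qs.getD t []) _
    induction Qs.getD t [] with
    | nil => rfl
    | cons a l ih => rw [List.map_cons, col, col, ih, Net.testBit_rapp h1]
  obtain ⟨m0, h3, a0⟩ := genM_spec hQ _ _ _ hY _ _ h3
  obtain ⟨m1, h3, a1⟩ := genM_spec hQ _ _ _ hY _ _ h3
  obtain ⟨m2, h3, a2⟩ := genM_spec hQ _ _ _ hY _ _ h3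
  obtain ⟨m3, h3, a3⟩ := genM_spec hQ _ _ _ hY _ _ h3
  simp only [List.length_map, hl, zero_add, hd] at a0 a1 a2 a3
  refine ⟨h1, fun i hi => ?_, fun i hi => ?_⟩
  · rcases Nat.lt_or_ge i 4096 with c | c
    · have h5 := of_allN h2 (i - 4060) (by omega)
      rw [frc_eq, show Nat.add 4060 (i - 4060) = i from Nat.add_sub_cancel' hi] at h5
      exact fix_of_rapp h1 h5
    · exact Net.perm_of_le h1 c
  · have h4 : ((m0 ||| m1) ||| (m2 ||| m3)).testBit i = true := of_subB h3 (testBit_o4.2 hi)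
    simp only [Nat.testBit_or, Bool.or_eq_true] at h4
    have e := io_mem
    rcases h4 with (h | h) | h | h
    · exact ⟨1, one_mem _, fun x hx => by rw [one_mul]; exact hg.apply hx (a0 i hi h).2⟩
    · exact ⟨io, e, fun x hx => hg.io.apply hx (a1 i hi h).2⟩
    · exact ⟨io * io, mul_mem e e, fun x hx => by
        rw [mul_assoc]; exact hg.io.io.apply hx (a2 i hi h).2⟩
    · exact ⟨io * (io * io), mul_mem e (mul_mem e e), fun x hx => by
        rw [mul_assoc, mul_assoc]; exact hg.io.io.io.apply hx (a3 i hi h).2⟩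

open Classical in
/-- the vector number `j` -/
noncomputable def vL (Qs : List (List ℕ)) (j : ℕ) : ruLattice :=
  if h : vf (dv Qs j) ∈ ruLattice then ⟨_, h⟩ else 0

theorem smul_line (g : fourRu) (x : ruLattice) : g • orbit zI x = orbit zI (g • x) := by
  ext y
  simp only [Set.mem_smul_set, mem_orbit_sub]
  constructor
  · rintro ⟨_, ⟨z, hz, rfl⟩, rfl⟩
    exact ⟨z, hz, by rw [← mul_smul, ← mul_smul, zI_comm hz]⟩
  · rintro ⟨z, hz, rfl⟩
    exact ⟨_, ⟨z, hz, rfl⟩, by rw [← mul_smul, ← mul_smul, zI_comm hz]⟩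

theorem line_smul {z : fourRu} (hz : z ∈ zI) (x : ruLattice) : orbit zI (z • x) = orbit zI x :=
  orbit_smul (⟨z, hz⟩ : zI) x

theorem ncard_lines {x : ruLattice} (hx : x ∈ ML) : (orbit fourRu (orbit zI x)).ncard ≤ 4060 := by
  classical
  have hM := ML_card.1
  have h1 : orbit fourRu (orbit zI x) ⊆ orbit zI '' ML := by
    rintro _ ⟨g, rfl⟩
    exact ⟨g • x, (norm_smul' g x).trans hx, (smul_line g x).symm⟩
  refine (Set.ncard_le_ncard h1 (hM.image _)).trans ?_
  have := Fintype.ofFinite zI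
  have h2 := mul_card_image_le_card (f := orbit zI) hM.toFinset 4 (by
    intro y hy
    obtain ⟨x, hx, rfl⟩ := mem_image.1 hy
    have hx' : x ∈ ML := hM.mem_toFinset.1 hx
    rw [← card_zI, Nat.card_eq_fintype_card, ← card_univ]
    refine card_le_card_of_injOn (fun z : zI => z • x) (fun z _ => ?_) fun z _ w _ e => ?_
    · exact mem_coe.2 (mem_filter.2 ⟨hM.mem_toFinset.2 ((norm_smul' z x).trans hx'),
        orbit_smul z x⟩)
    · rw [← inv_mul_eq_one]
      exact Subtype.ext (zI_fix (z⁻¹ * w).2 hx' (show (z⁻¹ * w) • x = x by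
        rw [mul_smul, inv_smul_eq_iff]; exact e.symm)))
  rw [← Set.ncard_eq_toFinset_card _ hM] at h2
  have := ML_card.2
  rw [← hM.coe_toFinset, ← coe_image, Set.ncard_coe_finset]
  omega

/-- digits of a vector of the frame -/
def frD (p q : ℕ) : ℕ := cond (Nat.beq q p) 20 16

theorem vf_frD (p : ℕ) : vf (frD p) = fr p 4 :=
  ext_co fun q hq => by
    rw [co_vf _ hq, fr, co_mkV _ hq, frD]
    split_ifs with h
    · rw [h, Nat.beq_refl]; rfl
    · rw [show Nat.beq q p = false from Bool.eq_false_iff.2 fun e => h (Nat.eq_of_beq_eq_true e)]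
      rfl

/-- point `0` is a vector of the frame, and the networks are transitive -/
noncomputable def chkPt (Qs : List (List ℕ)) (L : List Net) (sched : List ℕ) : Bool :=
  band (okQ Qs) <| band (allN (fun p => Nat.beq (dv Qs 0 p) (frD 0 p)) 56) <|
  band (memb 2 (nthD Vc 0) (frD 0)) <|
  band (allN (fun p => allM (fun t => eqM (nthD Qs [] p) t o4 fun m => subB m 1) [12, 20]) 2) <|
  growL L sched (subB o4) 1

/-- a representation on the lines -/
structure Rep (Qs : List (List ℕ)) (θ : fourRu →* Equiv.Perm ℕ) : Prop where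
  ok : okQ Qs = true
  coe : ∀ i < 4060, (vL Qs i : RuVec) = vf (dv Qs i)
  mem : ∀ i < 4060, vL Qs i ∈ ML
  sup : ∀ g, θ g ∈ supp 4060
  act : ∀ g, ∀ i < 4060, ∃ z ∈ zI, (z * g) • vL Qs i = vL Qs (θ g i)
  inj : ∀ i < 4060, ∀ j < 4060, ∀ g, g • vL Qs i = vL Qs j → θ g i = j
  ker : ∀ z ∈ zI, θ z = 1
  tr : ∀ i < 4060, ∃ g, θ g 0 = i

theorem exists_rep {Qs : List (List ℕ)} {a b : fourRu} {ra rb : Net} {sched : List ℕ}
    (ha : Stp Qs a ra) (hb : Stp Qs b rb) (h : chkPt Qs [rb, ra] sched = true) :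
    ∃ θ, Rep Qs θ ∧ θ a = ra.perm ∧ θ b = rb.perm := by
  simp only [chkPt, band_iff] at h
  obtain ⟨p1, p2, p3, p4, p5⟩ := h
  have key : ∀ Q : ℕ → Prop, Q 0 → (∀ g r, Stp Qs g r → ∀ i < 4060, Q i → Q (r.perm i)) →
      ∀ i < 4060, Q i := fun Q q0 q1 i hi => by
    obtain ⟨O, o1, o2⟩ := growL_sound (N := 4096) (Q := fun i => i < 4060 ∧ Q i) (L := [rb, ra]) (by
      intro r hr
      simp only [List.mem_cons, List.not_mem_nil, or_false] at hr
      rcases hr with rfl | rfl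
      · exact ⟨hb.1, fun i h => ⟨H88.lt_of_supp hb.2.1 h.1, q1 _ _ hb i h.1 h.2⟩⟩
      · exact ⟨ha.1, fun i h => ⟨H88.lt_of_supp ha.2.1 h.1, q1 _ _ ha i h.1 h.2⟩⟩) sched 1
      (fun i hi => by
        rw [show i = 0 by simpa using Nat.testBit_one_eq_true_iff_self_eq_zero.1 hi]
        exact ⟨by norm_num, q0⟩) p5
    exact (o1 i (of_subB o2 (testBit_o4.2 hi))).2
  have e0 : vf (dv Qs 0) = vf (frD 0) := vf_congr fun p hp => Nat.eq_of_beq_eq_true (of_allN p2 p hp)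
  have hc : ∀ i, vf (dv Qs i) ∈ ruLattice → (vL Qs i : RuVec) = vf (dv Qs i) := fun i h => by
    rw [vL, dif_pos h]
  have h1 := key (fun i => vf (dv Qs i) ∈ ruLattice) (e0 ▸ mem_lat (fun q _ => by
    unfold frD; cases Nat.beq q 0 <;> simp) p3) fun g r hs i hi h => by
      obtain ⟨z, -, e⟩ := hs.2.2 i hi
      exact e ⟨_, h⟩ rfl ▸ Subtype.prop _
  have h2 : ∀ g r, Stp Qs g r → ∀ i < 4060, ∃ z ∈ zI, (z * g) • vL Qs i = vL Qs (r.perm i) :=
    fun g r hs i hi => by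
      obtain ⟨z, hz, e⟩ := hs.2.2 i hi
      exact ⟨z, hz, Subtype.ext ((e _ (hc i (h1 i hi))).trans
        (hc _ (h1 _ (H88.lt_of_supp hs.2.1 hi))).symm)⟩
  have h3 : ∀ g r, Stp Qs g r → ∀ i < 4060,
      g • orbit zI (vL Qs i) = orbit zI (vL Qs (r.perm i)) := fun g r hs i hi => by
    obtain ⟨z, hz, e⟩ := h2 g r hs i hi
    rw [← e, mul_smul, line_smul hz, smul_line]
  have h0 : vL Qs 0 ∈ ML := by
    change dot _ _ = 16
    rw [hc 0 (h1 0 (by norm_num)), e0]
    exact dot_of_phi (n := 16) (fun q _ => by unfold frD; cases Nat.beq q 0 <;> simp)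
      (by decide +kernel)
  have h4 := key (fun i => vL Qs i ∈ ML) h0 fun g r hs i hi h => by
    obtain ⟨z, -, e⟩ := h2 g r hs i hi
    rw [← e]
    exact (norm_smul' _ _).trans h
  have h5 := key (fun i => ∀ j < 4060, orbit zI (vL Qs i) = orbit zI (vL Qs j) → i = j) (by
    intro j hj e
    have a : ∀ u : ℕ, ∃ p < 2, co ((io ^ u) • vL Qs 0 : ruLattice) p = 4 ∨
        co ((io ^ u) • vL Qs 0 : ruLattice) p = -4 := fun u => by
      induction u with
      | zero =>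
        refine ⟨0, by norm_num, Or.inl ?_⟩
        rw [pow_zero, one_smul, hc 0 (h1 0 (by norm_num)), e0, co_vf _ (by norm_num)]; rfl
      | succ u ih =>
        obtain ⟨p, hp, h⟩ := ih
        refine ⟨1 - p, by omega, ?_⟩
        rw [pow_succ', mul_smul, coe_io, co_mp (by norm_num) _ (by omega)]
        interval_cases p
        · exact h
        · change -co _ 1 = _ ∨ -co _ 1 = _
          omega
    obtain ⟨z, hz, e⟩ := mem_orbit_sub.1 (e ▸ mem_orbit_self (vL Qs j))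
    obtain ⟨u, -, rfl⟩ := zI_cases hz
    obtain ⟨p, hp, h⟩ := a u
    rw [e, hc j (h1 j hj), co_vf _ (by omega)] at h
    obtain ⟨t, ht, h⟩ : ∃ t ∈ [12, 20], dv Qs j p = t := by
      simp only [List.mem_cons, List.not_mem_nil, or_false, exists_eq_or_imp, exists_eq_left]
      omega
    obtain ⟨m, b, c⟩ := eqM_spec (fun m => subB m 1) (nthD Qs [] p) t o4
    exact (Nat.testBit_one_eq_true_iff_self_eq_zero.1 (of_subB (b.symm.trans
      (of_allM (of_allN p4 p hp) t ht)) ((c j).2 ⟨testBit_o4.2 hj, h⟩))).symm)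
    fun g r hs i hi h j hj e => by
      have hj' := H88.lt_of_supp ((supp 4060).inv_mem hs.2.1) hj
      rw [h _ hj' (smul_left_cancel g (by rw [h3 g r hs i hi, h3 g r hs _ hj', e]; simp))]
      simp
  have h6 := key (fun i => orbit zI (vL Qs i) ∈ orbit fourRu (orbit zI (vL Qs 0)))
    (mem_orbit_self _) fun g r hs i hi h => by
      rw [← h3 g r hs i hi]; exact mem_orbit_of_mem_orbit g h
  obtain ⟨θ, t1, t2⟩ := exists_orbRep h5 h6 (Set.finite_range _) (ncard_lines h0)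
  refine ⟨θ, ⟨p1, fun i hi => hc i (h1 i hi), h4, t1, fun g i hi => ?_, fun i hi j hj g e => ?_,
    fun z hz => orbRep_eq h5 t1 t2 (supp _).one_mem fun i _ => ?_, fun i hi => ?_⟩,
    orbRep_eq h5 t1 t2 ha.2.1 (h3 _ _ ha), orbRep_eq h5 t1 t2 hb.2.1 (h3 _ _ hb)⟩
  · have e := t2 g i hi
    rw [smul_line] at e
    obtain ⟨z, hz, e⟩ := mem_orbit_sub.1 (e ▸ mem_orbit_self (vL Qs (θ g i)))
    exact ⟨z, hz, by rwa [mul_smul]⟩
  · exact h5 _ (H88.lt_of_supp (t1 g) hi) j hj (by rw [← t2 g i hi, smul_line, e])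
  · rw [smul_line, line_smul hz]; rfl
  · obtain ⟨g, e⟩ := h6 i hi
    exact ⟨g, h5 _ (H88.lt_of_supp (t1 g) (by norm_num)) i hi ((t2 g 0 (by norm_num)).symm.trans e)⟩

/-- a code with a tag in the lowest digit -/
def tg (t : ℕ) (f : ℕ → ℕ) : ℕ := Nat.add (Nat.land t 65535) (Nat.shiftLeft (pk f 56) 16)

/-- the digits of a tagged code -/
def du (c : ℕ) : ℕ → ℕ := dk (Nat.shiftRight c 16)

theorem du_tg {t : ℕ} {f : ℕ → ℕ} {i : ℕ} (h : ∀ i < 56, f i < 65536) (hi : i < 56) :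
    du (tg t f) i = f i := by
  rw [← dk_pk h hi]
  refine congrArg (dk · i) ?_
  change ((t &&& (2 ^ 16 - 1)) + pk f 56 <<< 16) >>> 16 = _
  rw [Nat.and_two_pow_sub_one_eq_mod, Nat.shiftLeft_eq, Nat.shiftRight_eq_div_pow]
  omega

/-- the positions where all the functionals have the same values as on `d` -/
noncomputable def cls (FL : List (ℕ × List ℕ)) (d : ℕ → ℕ) : ℕ → (ℕ → Bool) → Bool :=
  List.rec (motive := fun _ => ℕ → (ℕ → Bool) → Bool) (fun m k => k m)
    (fun f _ ih m k => frc (phi (du f.1) d) fun t => eqM f.2 t m fun m' => ih m' k) FL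

theorem cls_spec (d : ℕ → ℕ) (k : ℕ → Bool) (FL : List (ℕ × List ℕ)) : ∀ m, ∃ m',
    cls FL d m k = k m' ∧ ∀ i, (m'.testBit i = true ↔
      m.testBit i = true ∧ ∀ f ∈ FL, col f.2 i = phi (du f.1) d) := by
  induction FL with
  | nil => intro m; exact ⟨m, rfl, fun i => by simp⟩
  | cons f FL ih =>
    intro m
    obtain ⟨m', h1, h2⟩ := eqM_spec (fun m' => cls FL d m' k) f.2 (phi (du f.1) d) m
    obtain ⟨m'', h3, h4⟩ := ih m'
    exact ⟨m'', h1.trans h3, fun i => by rw [h4, h2, List.forall_mem_cons, and_assoc]⟩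

/-- upper bounds along a chain of vector stabilisers -/
noncomputable def ub (Qs : List (List ℕ)) (QL : List (List ℕ × List ℕ)) (lv : List (ℕ × ℕ)) :
    List (ℕ × List ℕ) → Bool :=
  List.rec (motive := fun _ => List (ℕ × List ℕ) → Bool) (fun _ => true) (fun v _ ih FL =>
    band (Nat.blt v.1 4060) <|
    frc (tg (Nat.mul 4 v.1) (dv Qs v.1)) fun c0 => frc (tg (Nat.succ c0) (mF 0 (du c0))) fun c1 =>
    frc (tg (Nat.succ c1) (mF 0 (du c1))) fun c2 => frc (tg (Nat.succ c2) (mF 0 (du c2))) fun c3 =>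
    cls FL (du c0) o4 fun m0 => cls FL (du c1) o4 fun m1 => cls FL (du c2) o4 fun m2 =>
    cls FL (du c3) o4 fun m3 =>
    band (allN (fun p => band (Nat.ble 1 (du c0 p)) (Nat.ble (du c0 p) 31)) 56) <|
    band (Nat.ble (Nat.add (Nat.add (H74.pop 12 m0) (H74.pop 12 m1))
      (Nat.add (H74.pop 12 m2) (H74.pop 12 m3))) v.2) <|
    linL QL (du c0) 0 Z10 fun R0 => linL QL (du c1) 0 Z10 fun R1 =>
    ih ((c0, R0) :: (c1, R1) :: FL)) lv

theorem ub_cons (Qs : List (List ℕ)) (QL : List (List ℕ × List ℕ)) (v : ℕ × ℕ)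
    (lv : List (ℕ × ℕ)) (FL : List (ℕ × List ℕ)) : ub Qs QL (v :: lv) FL =
    (band (Nat.blt v.1 4060) <|
    frc (tg (Nat.mul 4 v.1) (dv Qs v.1)) fun c0 => frc (tg (Nat.succ c0) (mF 0 (du c0))) fun c1 =>
    frc (tg (Nat.succ c1) (mF 0 (du c1))) fun c2 => frc (tg (Nat.succ c2) (mF 0 (du c2))) fun c3 =>
    cls FL (du c0) o4 fun m0 => cls FL (du c1) o4 fun m1 => cls FL (du c2) o4 fun m2 =>
    cls FL (du c3) o4 fun m3 =>
    band (allN (fun p => band (Nat.ble 1 (du c0 p)) (Nat.ble (du c0 p) 31)) 56) <|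
    band (Nat.ble (Nat.add (Nat.add (H74.pop 12 m0) (H74.pop 12 m1))
      (Nat.add (H74.pop 12 m2) (H74.pop 12 m3))) v.2) <|
    linL QL (du c0) 0 Z10 fun R0 => linL QL (du c1) 0 Z10 fun R1 =>
    ub Qs QL lv ((c0, R0) :: (c1, R1) :: FL)) := rfl

theorem io_code (t : ℕ) {x : ruLattice} {d : ℕ → ℕ}
    (h : (x : RuVec) = vf d ∧ ∀ p < 56, 1 ≤ d p ∧ d p ≤ 31) :
    ((io • x : ruLattice) : RuVec) = vf (du (tg t (mF 0 d))) ∧
      ∀ p < 56, 1 ≤ du (tg t (mF 0 d)) p ∧ du (tg t (mF 0 d)) p ≤ 31 := by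
  have h1 : ∀ p < 56, 1 ≤ mF 0 d p ∧ mF 0 d p ≤ 31 := fun p hp => by
    have := h.2 _ (sg_lt 0 (by norm_num) p hp)
    unfold mF
    cases ng 0 p
    · exact this
    · change 1 ≤ 32 - _ ∧ 32 - _ ≤ 31
      omega
  have h2 : ∀ p < 56, du (tg t (mF 0 d)) p = mF 0 d p := fun p =>
    du_tg fun i hi => by have := h1 i hi; omega
  exact ⟨by rw [coe_io, h.1, mp_vf (by norm_num) fun p hp => by have := h.2 p hp; omega,
    vf_congr h2], fun p hp => h2 p hp ▸ h1 p hp⟩

theorem ub_spec {Qs : List (List ℕ)} {θ : fourRu →* Equiv.Perm ℕ} (hθ : Rep Qs θ)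
    (lv : List (ℕ × ℕ)) : ∀ (FL : List (ℕ × List ℕ)) (H : Subgroup fourRu),
    (∀ f ∈ FL, (∃ y : ruLattice, (y : RuVec) = vf (du f.1) ∧ ∀ g ∈ H, g • y = y) ∧
      ∀ i < 4060, col f.2 i = phi (du f.1) (dv Qs i)) →
    ub Qs (Qs.map (cpl o4)) lv FL = true → ∃ K ≤ H,
      Nat.card H ≤ (lv.map Prod.snd).prod * Nat.card K ∧
      ∀ g ∈ K, ∀ v ∈ lv, v.1 < 4060 ∧ g • vL Qs v.1 = vL Qs v.1 := by
  induction lv with
  | nil => intro FL H _ _; exact ⟨H, le_rfl, by simp, by simp⟩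
  | cons v lv ih =>
    intro FL H hF h
    rw [ub_cons, band_iff, frc_eq, frc_eq, frc_eq, frc_eq] at h
    obtain ⟨hv, h⟩ := h
    have hv := Nat.blt_eq.mp hv
    generalize e0 : tg (Nat.mul 4 v.1) (dv Qs v.1) = c0 at h
    generalize e1 : tg (Nat.succ c0) (mF 0 (du c0)) = c1 at h
    generalize e2 : tg (Nat.succ c1) (mF 0 (du c1)) = c2 at h
    generalize e3 : tg (Nat.succ c2) (mF 0 (du c2)) = c3 at h
    have hc : ∀ (d : ℕ → ℕ) (k : ℕ → Bool), cls FL d o4 k = true → ∃ m, k m = true ∧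
        ∀ z ∈ zI, (((z • vL Qs v.1 : ruLattice) : RuVec) = vf d ∧ ∀ p < 56, 1 ≤ d p ∧ d p ≤ 31) →
          ∃ S : Set ruLattice, S.Finite ∧ S.ncard ≤ H74.pop 12 m ∧ ∀ g ∈ H, ∀ i < 4060,
            (z * g) • vL Qs v.1 = vL Qs i → g • vL Qs v.1 ∈ S := fun d k h => by
      obtain ⟨m, h1, h2⟩ := cls_spec d k FL o4
      refine ⟨m, h1.symm.trans h, fun z hz hd => ⟨(fun i => z⁻¹ • vL Qs i) '' H74.bits m,
        (H74.bits_finite m).image _, (Set.ncard_image_le (H74.bits_finite m)).trans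
          (H74.ncard_bits_pop fun i hi => (testBit_o4.1 ((h2 i).1 hi).1).trans (by norm_num)).le,
        fun g hg i hi e => ⟨i, (h2 i).2 ⟨testBit_o4.2 hi, fun f hf => ?_⟩, by
          simp only [← e, mul_smul, inv_smul_smul]⟩⟩⟩
      obtain ⟨⟨y, y1, y2⟩, y3⟩ := hF f hf
      have a := phi_eq (du f.1) (dv_le hθ.ok i)
      have b := phi_eq (du f.1) fun p hp => (hd.2 p hp).2
      have c := dot_smul g y (z • vL Qs v.1)
      rw [y2 g hg, ← mul_smul, zI_comm hz, e, y1, hθ.coe i hi, hd.1] at c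
      rw [y3 i hi]
      omega
    obtain ⟨m0, h, a0⟩ := hc _ _ h
    obtain ⟨m1, h, a1⟩ := hc _ _ h
    obtain ⟨m2, h, a2⟩ := hc _ _ h
    obtain ⟨m3, h, a3⟩ := hc _ _ h
    rw [band_iff, band_iff] at h
    obtain ⟨h1, h2, h⟩ := h
    obtain ⟨R0, h, b0⟩ := lin_spec hθ.ok h
    obtain ⟨R1, h, b1⟩ := lin_spec hθ.ok h
    have d0 : ((vL Qs v.1 : ruLattice) : RuVec) = vf (du c0) ∧
        ∀ p < 56, 1 ≤ du c0 p ∧ du c0 p ≤ 31 := by
      refine ⟨?_, fun p hp => ?_⟩
      · rw [hθ.coe _ hv, ← e0]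
        exact vf_congr fun p hp =>
          (du_tg (fun i hi => (dv_le hθ.ok _ i hi).trans_lt (by norm_num)) hp).symm
      · obtain ⟨a, b⟩ := band_iff.1 (of_allN h1 p hp)
        exact ⟨Nat.le_of_ble_eq_true a, Nat.le_of_ble_eq_true b⟩
    have d1 := io_code (Nat.succ c0) d0
    rw [e1] at d1
    have d2 := io_code (Nat.succ c1) d1
    rw [e2, ← mul_smul] at d2
    have d3 := io_code (Nat.succ c2) d2
    rw [e3, ← mul_smul] at d3
    obtain ⟨K, k0, k1, k2⟩ := ih _ (H ⊓ stabilizer fourRu (vL Qs v.1)) (by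
      simp only [List.forall_mem_cons]
      refine ⟨⟨⟨_, d0.1, fun g hg => hg.2⟩, fun i hi => by
        rw [b0 i (testBit_o4.2 hi), col_Z10, zero_add]⟩, ⟨⟨_, d1.1, fun g hg => by
          rw [← mul_smul, io_comm, mul_smul, show g • vL Qs v.1 = _ from hg.2]⟩, fun i hi => by
        rw [b1 i (testBit_o4.2 hi), col_Z10, zero_add]⟩, fun f hf => ⟨?_, (hF f hf).2⟩⟩
      obtain ⟨y, y1, y2⟩ := (hF f hf).1
      exact ⟨y, y1, fun g hg => y2 g hg.1⟩) h
    have e := io_mem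
    obtain ⟨S0, s0, t0, u0⟩ := a0 1 (one_mem _) (by rwa [one_smul])
    obtain ⟨S1, s1, t1, u1⟩ := a1 io e d1
    obtain ⟨S2, s2, t2, u2⟩ := a2 _ (mul_mem e e) d2
    obtain ⟨S3, s3, t3, u3⟩ := a3 _ (mul_mem e (mul_mem e e)) d3
    have ho : (orbit H (vL Qs v.1)).ncard ≤ v.2 := by
      have hs : orbit H (vL Qs v.1) ⊆ (S0 ∪ S1) ∪ (S2 ∪ S3) := fun x hx => by
        obtain ⟨g, hg, rfl⟩ := mem_orbit_sub.1 hx
        obtain ⟨z, hz, e⟩ := hθ.act g _ hv
        have hi := H88.lt_of_supp (hθ.sup g) hv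
        obtain ⟨u, hu, rfl⟩ := zI_cases hz
        interval_cases u
        · exact Or.inl (Or.inl (u0 g hg _ hi (by simpa using e)))
        · exact Or.inl (Or.inr (u1 g hg _ hi (by simpa using e)))
        · exact Or.inr (Or.inl (u2 g hg _ hi (by rwa [← sq])))
        · exact Or.inr (Or.inr (u3 g hg _ hi (by rwa [← pow_three])))
      have := Set.ncard_le_ncard hs ((s0.union s1).union (s2.union s3))
      have := Set.ncard_union_le (S0 ∪ S1) (S2 ∪ S3)
      have := Set.ncard_union_le S0 S1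
      have := Set.ncard_union_le S2 S3
      have : H74.pop 12 m0 + H74.pop 12 m1 + (H74.pop 12 m2 + H74.pop 12 m3) ≤ v.2 :=
        Nat.le_of_ble_eq_true h2
      omega
    refine ⟨K, k0.trans inf_le_left, ?_, fun g hg => ?_⟩
    · rw [card_eq_orbit_mul H (vL Qs v.1), List.map_cons, List.prod_cons, mul_assoc]
      exact Nat.mul_le_mul ho k1
    · rw [List.forall_mem_cons]
      exact ⟨⟨hv, (k0 hg).2⟩, k2 g hg⟩

/-- the upper bound for the order -/
noncomputable def chkUB (Qs : List (List ℕ)) (lv : List (ℕ × ℕ)) (fp : List ℕ) : Bool :=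
  band (prep o4 Qs fun QL => ub Qs QL lv []) <|
  allN (fun m => band (H74.memL (nthD fp 0 m) (lv.map Prod.fst))
    (allN (fun q => Nat.beq (dv Qs (nthD fp 0 m) q) (frD (Nat.mul 2 m) q)) 56)) 28

theorem mp_fr : ∀ m < 28, ∀ q < 56, mF 0 (frD (2 * m)) q = frD (2 * m + 1) q := by decide +kernel

theorem card_le {Qs : List (List ℕ)} {θ : fourRu →* Equiv.Perm ℕ} (hθ : Rep Qs θ)
    {lv : List (ℕ × ℕ)} {fp : List ℕ} (h : chkUB Qs lv fp = true) :
    Nat.card fourRu ≤ (lv.map Prod.snd).prod := by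
  rw [chkUB, band_iff, prep_eq] at h
  obtain ⟨K, -, k1, k2⟩ := ub_spec hθ lv [] ⊤ (by simp) h.1
  suffices e : K = ⊥ by rwa [e, Subgroup.card_top, Subgroup.card_bot, mul_one] at k1
  refine eq_bot_iff.2 fun g hg => four_ext fun x => ?_
  have h1 : ∀ m < 28, ∃ y : ruLattice, (y : RuVec) = vf (frD (2 * m)) ∧ g • y = y := fun m hm => by
    obtain ⟨a, b⟩ := band_iff.1 (of_allN h.2 m hm)
    obtain ⟨v, hv, e⟩ := List.mem_map.1 (H74.of_memL a)
    obtain ⟨c, d⟩ := k2 g hg v hv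
    refine ⟨_, ?_, d⟩
    rw [hθ.coe _ c, e]
    exact vf_congr fun q hq => Nat.eq_of_beq_eq_true (of_allN b q hq)
  have h2 : ∀ p < 56, ∃ y : ruLattice, (y : RuVec) = fr p 4 ∧ g • y = y := fun p hp => by
    obtain ⟨y, y1, y2⟩ := h1 (p / 2) (by omega)
    rw [← vf_frD]
    rcases Nat.mod_two_eq_zero_or_one p with c | c
    · exact ⟨y, by rwa [show 2 * (p / 2) = p by omega] at y1, y2⟩
    · refine ⟨io • y, ?_, by rw [← mul_smul, io_comm, mul_smul, y2]⟩
      rw [coe_io, y1, mp_vf (by norm_num) fun q _ => by unfold frD; cases Nat.beq q _ <;> simp,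
        vf_congr (mp_fr _ (by omega)), show 2 * (p / 2) + 1 = p by omega]
  choose! y y1 y2 using h2
  have e : (4 : ℤ) • x = ∑ p ∈ range 56, co x p • y p := Subtype.ext (ext_co fun q hq => by
    rw [AddSubgroup.val_finsetSum, co_sum, AddSubgroup.coe_zsmul, co_zsmul,
      sum_eq_single_of_mem q (mem_range.2 hq) fun p hp h => by
        rw [AddSubgroup.coe_zsmul, co_zsmul, y1 p (mem_range.1 hp), fr, co_mkV _ hq, if_neg h.symm,
          mul_zero],
      AddSubgroup.coe_zsmul, co_zsmul, y1 q hq, fr, co_mkV _ hq, if_pos rfl, mul_comm])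
  have e2 : actH g ((4 : ℤ) • x) = (4 : ℤ) • x := by
    rw [e, map_sum]
    exact sum_congr rfl fun p hp => by
      rw [map_zsmul]; exact congrArg _ (y2 p (mem_range.1 hp))
  rw [map_zsmul] at e2
  exact Subtype.ext (smul_cancel (a := 4) (by norm_num) (congrArg Subtype.val e2))

end H79.Ru
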